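import Cfsg.Agent.Lib.Helper6.HKK.DefsB
import Cfsg.Agent.S4209

/-!
# HKK piece B1

(done by helper6)
-/

set_option autoImplicit false
set_option linter.unusedSectionVars false

open scoped commutatorElement

namespace Cfsg.Agent.Lib.Helper6.HKK

universe u

variable (G : Type u) [Group G] [Finite G]

theorem comm_Gm_le (i j : ℕ) : ⁅Gm G i, Gm G j⁆ ≤ Gm G (i + j + 1) :=
  Cfsg.Agent.S4209.lcs_comm_le ⊤ i j

variable {G}

theorem comm_mem {i j : ℕ} {g h : G} (hg : g ∈ Gm G i) (hh : h ∈ Gm G j) : ⁅g, h⁆ ∈ Gm G (i + j + 1) :=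
  comm_Gm_le G i j (Subgroup.commutator_mem_commutator hg hh)

theorem Gm_anti {i j : ℕ} (h : i ≤ j) : Gm G j ≤ Gm G i :=
  Subgroup.lowerCentralSeries_antitone _ h

theorem mem_Gm_zero (g : G) : g ∈ Gm G 0 := Subgroup.mem_top g

theorem conj_mem_Gm {m : ℕ} {c : G} (hc : c ∈ Gm G m) (x : G) : x * c * x⁻¹ ∈ Gm G m :=
  (inferInstance : (Gm G m).Normal).conj_mem c hc x

theorem alpha_mem (α : MulAut G) {m : ℕ} {g : G} (hg : g ∈ Gm G m) : α g ∈ Gm G m := by
  have h : (Gm G m).Characteristic := inferInstance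
  have := Subgroup.characteristic_iff_map_eq.1 h α
  rw [← this]
  exact Subgroup.mem_map_of_mem _ hg

end Cfsg.Agent.Lib.Helper6.HKK
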