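import Cfsg.Agent.Lib.Helper6.HKK.DefsB
import Cfsg.Agent.Lib.Helper6.HKK.B1

/-!
# HKK piece B2

Basic facts on `io`.
-/

set_option autoImplicit false
set_option linter.unusedSectionVars false

open scoped commutatorElement

namespace Cfsg.Agent.Lib.Helper6.HKK

universe u

variable (G : Type u) [Group G] [Finite G]

variable {G}

theorem B2_io_pos (m : ℕ) {g : G} (hg : g ∈ Gm G m) :
    io G m g = (Additive.ofMul (Abelianization.of (QuotientGroup.mk (⟨g, hg⟩ : ↥(Gm G m)))) :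
      Additive (Abelianization (↥(Gm G m) ⧸ (Gm G (m + 1)).subgroupOf (Gm G m)))) := by
  unfold io
  exact dif_pos hg

theorem B2_comm (m : ℕ) (a b : ↥(Gm G m) ⧸ (Gm G (m + 1)).subgroupOf (Gm G m)) : a * b = b * a := by
  induction a using QuotientGroup.induction_on with
  | H x =>
    induction b using QuotientGroup.induction_on with
    | H y =>
      rw [← QuotientGroup.mk_mul, ← QuotientGroup.mk_mul, QuotientGroup.eq, Subgroup.mem_subgroupOf]
      have h1 : ⁅(y : G)⁻¹, (x : G)⁻¹⁆ ∈ Gm G (m + m + 1) :=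
        comm_mem ((Gm G m).inv_mem y.2) ((Gm G m).inv_mem x.2)
      have h2 := Gm_anti (G := G) (show m + 1 ≤ m + m + 1 by omega) h1
      have e : (((x * y)⁻¹ * (y * x) : ↥(Gm G m)) : G) = ⁅(y : G)⁻¹, (x : G)⁻¹⁆ := by
        rw [commutatorElement_def]
        push_cast
        group
      rw [e]
      exact h2

theorem B2_of_eq_one (m : ℕ) (a : ↥(Gm G m) ⧸ (Gm G (m + 1)).subgroupOf (Gm G m))
    (h : Abelianization.of a = 1) : a = 1 := by
  have h1 : a ∈ (Abelianization.of (G := ↥(Gm G m) ⧸ (Gm G (m + 1)).subgroupOf (Gm G m))).ker := h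
  rw [Abelianization.ker_of, commutator_def] at h1
  have h2 : ⁅(⊤ : Subgroup (↥(Gm G m) ⧸ (Gm G (m + 1)).subgroupOf (Gm G m))),
      (⊤ : Subgroup (↥(Gm G m) ⧸ (Gm G (m + 1)).subgroupOf (Gm G m)))⁆ ≤ ⊥ := by
    rw [Subgroup.commutator_le]
    intro x _ y _
    rw [Subgroup.mem_bot, commutatorElement_eq_one_iff_mul_comm]
    exact B2_comm m x y
  exact Subgroup.mem_bot.1 (h2 h1)

theorem io_mul (m : ℕ) {g h : G} (hg : g ∈ Gm G m) (hh : h ∈ Gm G m) : io G m (g * h) = io G m g + io G m h := by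
  rw [B2_io_pos m hg, B2_io_pos m hh, B2_io_pos m ((Gm G m).mul_mem hg hh)]
  rfl

theorem io_one (m : ℕ) : io G m 1 = 0 := by
  rw [B2_io_pos m (Gm G m).one_mem]
  rfl

theorem io_inv (m : ℕ) {g : G} (hg : g ∈ Gm G m) : io G m g⁻¹ = - io G m g := by
  rw [eq_neg_iff_add_eq_zero, ← io_mul m ((Gm G m).inv_mem hg) hg, inv_mul_cancel, io_one]

theorem io_eq_zero_iff (m : ℕ) {g : G} (hg : g ∈ Gm G m) : io G m g = 0 ↔ g ∈ Gm G (m + 1) := by
  rw [B2_io_pos m hg]
  constructor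
  · intro h
    have h1 : Abelianization.of (QuotientGroup.mk (⟨g, hg⟩ : ↥(Gm G m)) :
        ↥(Gm G m) ⧸ (Gm G (m + 1)).subgroupOf (Gm G m)) = 1 := h
    have h2 := B2_of_eq_one m _ h1
    rw [QuotientGroup.eq_one_iff, Subgroup.mem_subgroupOf] at h2
    exact h2
  · intro h
    have h2 : (QuotientGroup.mk (⟨g, hg⟩ : ↥(Gm G m)) :
        ↥(Gm G m) ⧸ (Gm G (m + 1)).subgroupOf (Gm G m)) = 1 := by
      rw [QuotientGroup.eq_one_iff, Subgroup.mem_subgroupOf]
      exact h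
    rw [h2, map_one]
    rfl

theorem io_surj (m : ℕ) (x : Gr G m) : ∃ g, g ∈ Gm G m ∧ io G m g = x := by
  obtain ⟨q, hq⟩ := QuotientGroup.mk_surjective (s := commutator _)
    (show Abelianization (↥(Gm G m) ⧸ (Gm G (m + 1)).subgroupOf (Gm G m)) from x)
  obtain ⟨g, rfl⟩ := QuotientGroup.mk_surjective q
  refine ⟨g.1, g.2, ?_⟩
  rw [B2_io_pos m g.2]
  exact hq

end Cfsg.Agent.Lib.Helper6.HKK
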