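import Cfsg.Agent.Lib.Helper6.HKK.DefsB
import Cfsg.Agent.Lib.Helper6.HKK.B1
import Cfsg.Agent.Lib.Helper6.HKK.B2

/-!
# HKK piece B2b

Universal property of `Gr G m`.  Build the monoid hom γ_m →* Multiplicative A, ⟨g,_⟩ ↦ ofAdd (f g); it kills `(Gm G (m+1)).subgroupOf (Gm G m)`, so `QuotientGroup.lift`;
then `Abelianization.lift` (target commutative); then `MonoidHom.toAdditive`-style conversion (`Gr G m` is by definition `Additive (Abelianization …)`; use `show`/`unfold Gr`; `AddMonoidHom.mk'` with the underlying function `fun x => Multiplicative.toAdd (F (Additive.toMul x))` is the most robust).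
The equation: unfold `io`, `dif_pos hg`, `Abelianization.lift_apply_of`/`Abelianization.lift.of`, `QuotientGroup.lift_mk`.
(Alternative without lifts: define F x := f (Classical.choose (io_surj m x)) and check additivity by `io_eq_zero_iff`: if io g = io g' (g, g' ∈ γ_m) then g⁻¹g' ∈ γ_{m+1} so f g' = f (g (g⁻¹ g')) = f g + 0.)
-/

set_option autoImplicit false
set_option linter.unusedSectionVars false

open scoped commutatorElement

namespace Cfsg.Agent.Lib.Helper6.HKK

universe u

variable (G : Type u) [Group G] [Finite G]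

variable {G}

theorem lift_io (m : ℕ) {A : Type*} [AddCommGroup A] (f : G → A)
    (hmul : ∀ g h, g ∈ Gm G m → h ∈ Gm G m → f (g * h) = f g + f h)
    (hker : ∀ g, g ∈ Gm G (m + 1) → f g = 0) :
    ∃ F : Gr G m →+ A, ∀ g, g ∈ Gm G m → F (io G m g) = f g := by
  classical
  have key : ∀ g g', g ∈ Gm G m → g' ∈ Gm G m → io G m g = io G m g' → f g = f g' := by
    intro g g' hg hg' h
    have h1 : g⁻¹ * g' ∈ Gm G m := (Gm G m).mul_mem ((Gm G m).inv_mem hg) hg'
    have h2 : io G m (g⁻¹ * g') = 0 := by
      rw [io_mul m ((Gm G m).inv_mem hg) hg', io_inv m hg, h, neg_add_cancel]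
    have h3 := hker _ ((io_eq_zero_iff m h1).1 h2)
    have h4 : g' = g * (g⁻¹ * g') := by group
    rw [h4, hmul g _ hg h1, h3, add_zero]
  let r : Gr G m → G := fun x => Classical.choose (io_surj m x)
  have hr1 : ∀ x, r x ∈ Gm G m := fun x => (Classical.choose_spec (io_surj m x)).1
  have hr2 : ∀ x, io G m (r x) = x := fun x => (Classical.choose_spec (io_surj m x)).2
  refine ⟨AddMonoidHom.mk' (fun x => f (r x)) ?_, ?_⟩
  · intro x y
    rw [← hmul _ _ (hr1 x) (hr1 y)]
    apply key _ _ (hr1 _) ((Gm G m).mul_mem (hr1 x) (hr1 y))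
    rw [hr2, io_mul m (hr1 x) (hr1 y), hr2, hr2]
  · intro g hg
    show f (r (io G m g)) = f g
    exact key _ _ (hr1 _) hg (hr2 _)

end Cfsg.Agent.Lib.Helper6.HKK
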