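import Cfsg.Agent.Lib.Helper6.HKK.DefsB
import Cfsg.Agent.Lib.Helper6.HKK.B1
import Cfsg.Agent.Lib.Helper6.HKK.B2

/-!
# HKK piece B2c

`el G m g = ofG G m (io G m g)`, `ofG G m = DirectSum.of (Gr G) m` is an injective additive hom (`DirectSum.of_injective`).  So the first five follow from B2.
`el_conj`: x c x⁻¹ = ⁅x, c⁆ * c, ⁅x,c⁆ ∈ γ_{0+m+1} (`comm_mem (mem_Gm_zero x) hc`, index `0+m+1 = m+1` by `Nat.zero_add`/omega) so el m ⁅x,c⁆ = 0.
`LG_closure`: `DirectSum.induction_on` (unfold LG): of m x with x = io m g by `io_surj`.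
`LG_ind`: from `LG_closure` by `AddSubgroup.closure_induction`.
-/

set_option autoImplicit false
set_option linter.unusedSectionVars false

open scoped commutatorElement

namespace Cfsg.Agent.Lib.Helper6.HKK

universe u

variable (G : Type u) [Group G] [Finite G]

variable {G}

theorem el_mul (m : ℕ) {g h : G} (hg : g ∈ Gm G m) (hh : h ∈ Gm G m) : el G m (g * h) = el G m g + el G m h := by
  unfold el
  rw [io_mul m hg hh, map_add]
theorem el_one (m : ℕ) : el G m 1 = 0 := by
  unfold el
  rw [io_one, map_zero]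
theorem el_inv (m : ℕ) {g : G} (hg : g ∈ Gm G m) : el G m g⁻¹ = - el G m g := by
  unfold el
  rw [io_inv m hg, map_neg]
theorem B2c_ofG_injective (m : ℕ) : Function.Injective (ofG G m) := by
  classical
  exact DirectSum.of_injective (β := Gr G) m
theorem el_eq_zero_iff (m : ℕ) {g : G} (hg : g ∈ Gm G m) : el G m g = 0 ↔ g ∈ Gm G (m + 1) := by
  rw [← io_eq_zero_iff m hg]
  unfold el
  constructor
  · intro h
    apply B2c_ofG_injective m
    rw [h, map_zero]
  · intro h
    rw [h, map_zero]
theorem el_pow (m : ℕ) {g : G} (hg : g ∈ Gm G m) (n : ℕ) : el G m (g ^ n) = n • el G m g := by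
  induction n with
  | zero => rw [pow_zero, el_one, zero_smul]
  | succ n ih =>
    rw [pow_succ, el_mul m ((Gm G m).pow_mem hg n) hg, ih, succ_nsmul]
theorem el_conj (m : ℕ) {c : G} (hc : c ∈ Gm G m) (x : G) : el G m (x * c * x⁻¹) = el G m c := by
  have h1 : x * c * x⁻¹ = ⁅x, c⁆ * c := by
    rw [commutatorElement_def]
    group
  have h2 : ⁅x, c⁆ ∈ Gm G (m + 1) := by
    have := comm_mem (mem_Gm_zero x) hc
    rwa [Nat.zero_add] at this
  have h3 : ⁅x, c⁆ ∈ Gm G m := Gm_anti (Nat.le_succ m) h2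
  rw [h1, el_mul m h3 hc, (el_eq_zero_iff m h3).2 h2, zero_add]
theorem LG_closure : AddSubgroup.closure {x : LG G | ∃ m g, g ∈ Gm G m ∧ x = el G m g} = ⊤ := by
  classical
  rw [eq_top_iff]
  intro x _
  have key : ∀ x : DirectSum ℕ (Gr G),
      (x : LG G) ∈ AddSubgroup.closure {x : LG G | ∃ m g, g ∈ Gm G m ∧ x = el G m g} := by
    intro x
    induction x using DirectSum.induction_on with
    | zero => exact zero_mem _
    | of m y =>
      obtain ⟨g, hg, rfl⟩ := io_surj m y
      exact AddSubgroup.subset_closure ⟨m, g, hg, rfl⟩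
    | add x y hx hy => exact add_mem hx hy
  exact key x
/-- induction principle for `LG G` -/
theorem LG_ind (P : LG G → Prop) (h0 : P 0) (hadd : ∀ x y, P x → P y → P (x + y)) (hneg : ∀ x, P x → P (-x))
    (hel : ∀ m g, g ∈ Gm G m → P (el G m g)) : ∀ x, P x := by
  intro x
  have hx : x ∈ AddSubgroup.closure {x : LG G | ∃ m g, g ∈ Gm G m ∧ x = el G m g} := by
    rw [LG_closure]
    exact AddSubgroup.mem_top x
  induction hx using AddSubgroup.closure_induction with
  | mem y hy =>
    obtain ⟨m, g, hg, rfl⟩ := hy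
    exact hel m g hg
  | zero => exact h0
  | add y z _ _ hy hz => exact hadd y z hy hz
  | neg y _ hy => exact hneg y hy

end Cfsg.Agent.Lib.Helper6.HKK
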