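import Cfsg.Agent.Lib.Helper6.HKK.DefsB
import Cfsg.Agent.Lib.Helper6.HKK.B1
import Cfsg.Agent.Lib.Helper6.HKK.B2c

/-!
# HKK piece B3a

Mathlib: ⁅g,h⁆ = g*h*g⁻¹*h⁻¹ (`commutatorElement_def`).
Left: ⁅g*g', h⁆ = (g * ⁅g',h⁆ * g⁻¹) * ⁅g,h⁆ (by `simp [commutatorElement_def]; group`), both factors in γ_{i+j+1} (`comm_mem`, `conj_mem_Gm`), `el_mul`, `el_conj`, `add_comm`.
Right: ⁅g, h*h'⁆ = ⁅g,h⁆ * (h * ⁅g,h'⁆ * h⁻¹).
Zero: g ∈ γ_{i+1}, h ∈ γ_j gives ⁅g,h⁆ ∈ γ_{i+1+j+1} = γ_{(i+j+1)+1} (rewrite the index by omega), then `el_eq_zero_iff`.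
-/

set_option autoImplicit false
set_option linter.unusedSectionVars false

open scoped commutatorElement

namespace Cfsg.Agent.Lib.Helper6.HKK

universe u

variable (G : Type u) [Group G] [Finite G]

variable {G}

theorem el_comm_mul_left (i j : ℕ) {g g' h : G} (hg : g ∈ Gm G i) (hg' : g' ∈ Gm G i) (hh : h ∈ Gm G j) :
    el G (i + j + 1) ⁅g * g', h⁆ = el G (i + j + 1) ⁅g, h⁆ + el G (i + j + 1) ⁅g', h⁆ := by
  have e : ⁅g * g', h⁆ = (g * ⁅g', h⁆ * g⁻¹) * ⁅g, h⁆ := by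
    simp only [commutatorElement_def]; group
  rw [e, el_mul _ (conj_mem_Gm (comm_mem hg' hh) g) (comm_mem hg hh), el_conj _ (comm_mem hg' hh),
    add_comm]

theorem el_comm_mul_right (i j : ℕ) {g h h' : G} (hg : g ∈ Gm G i) (hh : h ∈ Gm G j) (hh' : h' ∈ Gm G j) :
    el G (i + j + 1) ⁅g, h * h'⁆ = el G (i + j + 1) ⁅g, h⁆ + el G (i + j + 1) ⁅g, h'⁆ := by
  have e : ⁅g, h * h'⁆ = ⁅g, h⁆ * (h * ⁅g, h'⁆ * h⁻¹) := by
    simp only [commutatorElement_def]; group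
  rw [e, el_mul _ (comm_mem hg hh) (conj_mem_Gm (comm_mem hg hh') h), el_conj _ (comm_mem hg hh')]

theorem el_comm_left_zero (i j : ℕ) {g h : G} (hg : g ∈ Gm G (i + 1)) (hh : h ∈ Gm G j) :
    el G (i + j + 1) ⁅g, h⁆ = 0 := by
  have h1 : ⁅g, h⁆ ∈ Gm G (i + 1 + j + 1) := comm_mem hg hh
  have e : i + 1 + j + 1 = i + j + 1 + 1 := by omega
  rw [e] at h1
  exact (el_eq_zero_iff _ (Gm_anti (Nat.le_succ _) h1)).mpr h1

theorem el_comm_right_zero (i j : ℕ) {g h : G} (hg : g ∈ Gm G i) (hh : h ∈ Gm G (j + 1)) :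
    el G (i + j + 1) ⁅g, h⁆ = 0 := by
  have h1 : ⁅g, h⁆ ∈ Gm G (i + (j + 1) + 1) := comm_mem hg hh
  have e : i + (j + 1) + 1 = i + j + 1 + 1 := by omega
  rw [e] at h1
  exact (el_eq_zero_iff _ (Gm_anti (Nat.le_succ _) h1)).mpr h1

end Cfsg.Agent.Lib.Helper6.HKK
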