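import Cfsg.Agent.Lib.Helper6.HKK.DefsB
import Cfsg.Agent.Lib.Helper6.HKK.B1
import Cfsg.Agent.Lib.Helper6.HKK.B2
import Cfsg.Agent.Lib.Helper6.HKK.B2b
import Cfsg.Agent.Lib.Helper6.HKK.B2c
import Cfsg.Agent.Lib.Helper6.HKK.B3a

/-!
# HKK piece B3b

`exists_gbr_ij`: fix i j.  For h ∈ γ_j, `lift_io i (fun g => el (i+j+1) ⁅g,h⁆)` (`el_comm_mul_left`, `el_comm_left_zero`) gives F_h : Gr i →+ LG with F_h (io i g) = el ⁅g,h⁆.
Put f h := if h ∈ γ_j then F_h (Classical.choose) else 0 : G → (Gr G i →+ LG G).  f (h*h') = f h + f h' for h,h' ∈ γ_j: `AddMonoidHom.ext`, every x is io i g (`io_surj`), `el_comm_mul_right`.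
f h = 0 for h ∈ γ_{j+1} (⊆ γ_j by `Gm_anti`): `el_comm_right_zero`.  `lift_io j f` gives B' : Gr j →+ (Gr i →+ LG); take `B'.flip`.
`exists_gbr`: choose B i j; b := DirectSum.toAddMonoid (fun i => AddMonoidHom.flip (DirectSum.toAddMonoid (fun j => (B i j).flip))) (LG G is by definition DirectSum ℕ (Gr G), `ofG` is `DirectSum.of`; `DirectSum.toAddMonoid_of`, `AddMonoidHom.flip_apply`; unfold `el`, `ofG`).
-/

set_option autoImplicit false
set_option linter.unusedSectionVars false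

open scoped commutatorElement

namespace Cfsg.Agent.Lib.Helper6.HKK

universe u

variable (G : Type u) [Group G] [Finite G]

theorem exists_gbr_ij (i j : ℕ) : ∃ B : Gr G i →+ Gr G j →+ LG G, ∀ g h, g ∈ Gm G i → h ∈ Gm G j →
    B (io G i g) (io G j h) = el G (i + j + 1) ⁅g, h⁆ := by
  classical
  have hF : ∀ h : G, h ∈ Gm G j → ∃ F : Gr G i →+ LG G, ∀ g, g ∈ Gm G i →
      F (io G i g) = el G (i + j + 1) ⁅g, h⁆ := by
    intro h hh
    exact lift_io i (fun g => el G (i + j + 1) ⁅g, h⁆)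
      (fun g g' hg hg' => el_comm_mul_left i j hg hg' hh)
      (fun g hg => el_comm_left_zero i j hg hh)
  let f : G → (Gr G i →+ LG G) := fun h =>
    if hh : h ∈ Gm G j then Classical.choose (hF h hh) else 0
  have hf : ∀ h (hh : h ∈ Gm G j) g, g ∈ Gm G i → f h (io G i g) = el G (i + j + 1) ⁅g, h⁆ := by
    intro h hh g hg
    simp only [f, dif_pos hh]
    exact Classical.choose_spec (hF h hh) g hg
  have h1 : ∀ h h', h ∈ Gm G j → h' ∈ Gm G j → f (h * h') = f h + f h' := by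
    intro h h' hh hh'
    refine AddMonoidHom.ext fun x => ?_
    obtain ⟨g, hg, rfl⟩ := io_surj i x
    rw [AddMonoidHom.add_apply, hf _ ((Gm G j).mul_mem hh hh') g hg, hf h hh g hg, hf h' hh' g hg]
    exact el_comm_mul_right i j hg hh hh'
  have h2 : ∀ h, h ∈ Gm G (j + 1) → f h = 0 := by
    intro h hh
    refine AddMonoidHom.ext fun x => ?_
    obtain ⟨g, hg, rfl⟩ := io_surj i x
    rw [hf h (Gm_anti (Nat.le_succ j) hh) g hg, AddMonoidHom.zero_apply]
    exact el_comm_right_zero i j hg hh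
  obtain ⟨B', hB'⟩ := lift_io j f h1 h2
  refine ⟨B'.flip, ?_⟩
  intro g h hg hh
  rw [AddMonoidHom.flip_apply, hB' h hh, hf h hh g hg]

theorem exists_gbr : ∃ b : LG G →+ LG G →+ LG G, ∀ i j g h, g ∈ Gm G i → h ∈ Gm G j →
    b (el G i g) (el G j h) = el G (i + j + 1) ⁅g, h⁆ := by
  classical
  choose B hB using exists_gbr_ij G
  let b : DirectSum ℕ (Gr G) →+ DirectSum ℕ (Gr G) →+ LG G :=
    DirectSum.toAddMonoid (fun i => AddMonoidHom.flip (DirectSum.toAddMonoid (fun j => (B i j).flip)))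
  refine ⟨b, ?_⟩
  intro i j g h hg hh
  show b (DirectSum.of (Gr G) i (io G i g)) (DirectSum.of (Gr G) j (io G j h)) = _
  simp only [b]
  rw [DirectSum.toAddMonoid_of, AddMonoidHom.flip_apply, DirectSum.toAddMonoid_of,
    AddMonoidHom.flip_apply]
  exact hB i j g h hg hh

/-- the bracket of the associated Lie ring -/
noncomputable def gbr : LG G →+ LG G →+ LG G := Classical.choose (exists_gbr G)

variable {G}

theorem gbr_el (i j : ℕ) {g h : G} (hg : g ∈ Gm G i) (hh : h ∈ Gm G j) :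
    gbr G (el G i g) (el G j h) = el G (i + j + 1) ⁅g, h⁆ := Classical.choose_spec (exists_gbr G) i j g h hg hh

end Cfsg.Agent.Lib.Helper6.HKK
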