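import Cfsg.Agent.Lib.Helper6.HKK.DefsB
import Cfsg.Agent.Lib.Helper6.HKK.B1
import Cfsg.Agent.Lib.Helper6.HKK.B2c
import Cfsg.Agent.Lib.Helper6.HKK.B3b

/-!
# HKK piece B5

`gbr_skew`: `LG_ind` in x then in y (the statement is additive in each: `map_add`, `AddMonoidHom.add_apply`, `map_neg`, `AddMonoidHom.neg_apply`, `map_zero`, `abel`).  On generators: `gbr_el`, rewrite the index `j+i+1 = i+j+1` (`Nat.add_comm j i`), ⁅h,g⁆ = ⁅g,h⁆⁻¹ (`commutatorElement_inv`), `el_inv` (`comm_mem`), `add_neg_cancel`.
`gbr_self`: `LG_ind`: Q(x+y) = Q x + Q y + (gbr x y + gbr y x), Q(-x) = Q x, Q(el i g) = el (i+i+1) ⁅g,g⁆ = el _ 1 = 0 (`commutatorElement_self`, `el_one`).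
-/

set_option autoImplicit false
set_option linter.unusedSectionVars false

open scoped commutatorElement

namespace Cfsg.Agent.Lib.Helper6.HKK

universe u

variable (G : Type u) [Group G] [Finite G]

variable {G}

theorem gbr_skew (x y : LG G) : gbr G x y + gbr G y x = 0 := by
  revert y
  refine LG_ind (fun x => ∀ y, gbr G x y + gbr G y x = 0) ?_ ?_ ?_ ?_ x
  · intro y
    simp
  · intro x x' hx hx' y
    have h1 := hx y
    have h2 := hx' y
    rw [map_add, AddMonoidHom.add_apply, map_add]
    calc gbr G x y + gbr G x' y + (gbr G y x + gbr G y x')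
        = (gbr G x y + gbr G y x) + (gbr G x' y + gbr G y x') := by abel
      _ = 0 := by rw [h1, h2, add_zero]
  · intro x hx y
    have h1 := hx y
    rw [map_neg, AddMonoidHom.neg_apply, map_neg, ← neg_add, h1, neg_zero]
  · intro i g hg y
    refine LG_ind (fun y => gbr G (el G i g) y + gbr G y (el G i g) = 0) ?_ ?_ ?_ ?_ y
    · simp
    · intro y y' hy hy'
      rw [map_add, map_add, AddMonoidHom.add_apply]
      calc gbr G (el G i g) y + gbr G (el G i g) y' + (gbr G y (el G i g) + gbr G y' (el G i g))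
          = (gbr G (el G i g) y + gbr G y (el G i g))
            + (gbr G (el G i g) y' + gbr G y' (el G i g)) := by abel
        _ = 0 := by rw [hy, hy', add_zero]
    · intro y hy
      rw [map_neg, map_neg, AddMonoidHom.neg_apply, ← neg_add, hy, neg_zero]
    · intro j h hh
      rw [gbr_el i j hg hh, gbr_el j i hh hg, Nat.add_comm j i, ← commutatorElement_inv g h,
        el_inv _ (comm_mem hg hh), add_neg_cancel]

theorem gbr_self (x : LG G) : gbr G x x = 0 := by
  refine LG_ind (fun x => gbr G x x = 0) ?_ ?_ ?_ ?_ x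
  · simp
  · intro x y hx hy
    have h1 := gbr_skew x y
    rw [map_add, map_add, AddMonoidHom.add_apply, AddMonoidHom.add_apply]
    calc gbr G x x + gbr G y x + (gbr G x y + gbr G y y)
        = gbr G x x + gbr G y y + (gbr G x y + gbr G y x) := by abel
      _ = 0 := by rw [hx, hy, h1]; simp
  · intro x hx
    rw [map_neg, map_neg, AddMonoidHom.neg_apply, neg_neg, hx]
  · intro i g hg
    rw [gbr_el i i hg hg, commutatorElement_self, el_one]

end Cfsg.Agent.Lib.Helper6.HKK
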