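import Cfsg.Agent.Lib.Helper6.HKK.DefsB
import Cfsg.Agent.Lib.Helper6.HKK.B1
import Cfsg.Agent.Lib.Helper6.HKK.B2c
import Cfsg.Agent.Lib.Helper6.HKK.B3b

/-!
# HKK piece B6a

Hall–Witt in Mathlib's convention ⁅g,h⁆ = g h g⁻¹ h⁻¹ (check by `simp only [commutatorElement_def]; group`):
  (Y * ⁅⁅Y⁻¹,X⁆,Z⁆ * Y⁻¹) * (Z * ⁅⁅Z⁻¹,Y⁆,X⁆ * Z⁻¹) * (X * ⁅⁅X⁻¹,Z⁆,Y⁆ * X⁻¹) = 1.
Let N = i+j+k+2.  All three double commutators lie in γ_N (`comm_mem`, `inv_mem`; rewrite indices `j+i+1+k+1 = N` etc. by omega).  Apply `el G N`: `el_one`, `el_mul`, `el_conj` give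
  el N ⁅⁅Y⁻¹,X⁆,Z⁆ + el N ⁅⁅Z⁻¹,Y⁆,X⁆ + el N ⁅⁅X⁻¹,Z⁆,Y⁆ = 0.
By `gbr_el` (twice) el N ⁅⁅Y⁻¹,X⁆,Z⁆ = gbr (gbr (el j Y⁻¹) (el i X)) (el k Z) = - gbr (gbr (el j Y) (el i X)) (el k Z) (`el_inv`, `map_neg`, `AddMonoidHom.neg_apply`).  Negate.
-/

set_option autoImplicit false
set_option linter.unusedSectionVars false

open scoped commutatorElement

namespace Cfsg.Agent.Lib.Helper6.HKK

universe u

variable (G : Type u) [Group G] [Finite G]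

variable {G}

theorem B6a_hw (X Y Z : G) : (Y * ⁅⁅Y⁻¹, X⁆, Z⁆ * Y⁻¹) * (Z * ⁅⁅Z⁻¹, Y⁆, X⁆ * Z⁻¹) *
    (X * ⁅⁅X⁻¹, Z⁆, Y⁆ * X⁻¹) = 1 := by
  simp only [commutatorElement_def]
  group

theorem B6a_key (a b c : ℕ) {A B C : G} (hA : A ∈ Gm G a) (hB : B ∈ Gm G b) (hC : C ∈ Gm G c) :
    gbr G (gbr G (el G a A) (el G b B)) (el G c C) =
      - el G (a + b + 1 + c + 1) ⁅⁅A⁻¹, B⁆, C⁆ := by
  have hA' : A⁻¹ ∈ Gm G a := (Gm G a).inv_mem hA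
  rw [← gbr_el (a + b + 1) c (comm_mem hA' hB) hC, ← gbr_el a b hA' hB, el_inv a hA, map_neg,
    AddMonoidHom.neg_apply, map_neg, AddMonoidHom.neg_apply, neg_neg]

theorem hall_witt_el (i j k : ℕ) {X Y Z : G} (hX : X ∈ Gm G i) (hY : Y ∈ Gm G j) (hZ : Z ∈ Gm G k) :
    gbr G (gbr G (el G j Y) (el G i X)) (el G k Z) + gbr G (gbr G (el G k Z) (el G j Y)) (el G i X)
      + gbr G (gbr G (el G i X) (el G k Z)) (el G j Y) = 0 := by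
  rw [B6a_key j i k hY hX hZ, B6a_key k j i hZ hY hX, B6a_key i k j hX hZ hY]
  have e1 : j + i + 1 + k + 1 = i + j + k + 2 := by omega
  have e2 : k + j + 1 + i + 1 = i + j + k + 2 := by omega
  have e3 : i + k + 1 + j + 1 = i + j + k + 2 := by omega
  have m1 : ⁅⁅Y⁻¹, X⁆, Z⁆ ∈ Gm G (i + j + k + 2) :=
    e1 ▸ comm_mem (comm_mem ((Gm G j).inv_mem hY) hX) hZ
  have m2 : ⁅⁅Z⁻¹, Y⁆, X⁆ ∈ Gm G (i + j + k + 2) :=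
    e2 ▸ comm_mem (comm_mem ((Gm G k).inv_mem hZ) hY) hX
  have m3 : ⁅⁅X⁻¹, Z⁆, Y⁆ ∈ Gm G (i + j + k + 2) :=
    e3 ▸ comm_mem (comm_mem ((Gm G i).inv_mem hX) hZ) hY
  rw [e1, e2, e3]
  have hw := congrArg (el G (i + j + k + 2)) (B6a_hw X Y Z)
  rw [el_one, el_mul _ ((Gm G _).mul_mem (conj_mem_Gm m1 Y) (conj_mem_Gm m2 Z)) (conj_mem_Gm m3 X),
    el_mul _ (conj_mem_Gm m1 Y) (conj_mem_Gm m2 Z), el_conj _ m1, el_conj _ m2, el_conj _ m3] at hw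
  rw [← neg_add, ← neg_add, hw, neg_zero]

end Cfsg.Agent.Lib.Helper6.HKK
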