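import Cfsg.Agent.Lib.Helper6.HKK.DefsB
import Cfsg.Agent.Lib.Helper6.HKK.B1
import Cfsg.Agent.Lib.Helper6.HKK.B2c
import Cfsg.Agent.Lib.Helper6.HKK.B3b
import Cfsg.Agent.Lib.Helper6.HKK.B5
import Cfsg.Agent.Lib.Helper6.HKK.B6a

/-!
# HKK piece B6b
-/

set_option autoImplicit false
set_option linter.unusedSectionVars false

open scoped commutatorElement

namespace Cfsg.Agent.Lib.Helper6.HKK

universe u

variable (G : Type u) [Group G] [Finite G]

variable {G}

/-- the Jacobi expression -/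
noncomputable def B6b_J (x y z : LG G) : LG G :=
  gbr G (gbr G y x) z + gbr G (gbr G z y) x + gbr G (gbr G x z) y

theorem B6b_add1 (a b y z : LG G) : B6b_J (a + b) y z = B6b_J a y z + B6b_J b y z := by
  simp only [B6b_J, map_add, AddMonoidHom.add_apply]; abel
theorem B6b_add2 (x a b z : LG G) : B6b_J x (a + b) z = B6b_J x a z + B6b_J x b z := by
  simp only [B6b_J, map_add, AddMonoidHom.add_apply]; abel
theorem B6b_add3 (x y a b : LG G) : B6b_J x y (a + b) = B6b_J x y a + B6b_J x y b := by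
  simp only [B6b_J, map_add, AddMonoidHom.add_apply]; abel
theorem B6b_neg1 (a y z : LG G) : B6b_J (-a) y z = - B6b_J a y z := by
  simp only [B6b_J, map_neg, AddMonoidHom.neg_apply]; abel
theorem B6b_neg2 (x a z : LG G) : B6b_J x (-a) z = - B6b_J x a z := by
  simp only [B6b_J, map_neg, AddMonoidHom.neg_apply]; abel
theorem B6b_neg3 (x y a : LG G) : B6b_J x y (-a) = - B6b_J x y a := by
  simp only [B6b_J, map_neg, AddMonoidHom.neg_apply]; abel
theorem B6b_zero1 (y z : LG G) : B6b_J 0 y z = 0 := by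
  simp only [B6b_J, map_zero, AddMonoidHom.zero_apply, add_zero]
theorem B6b_zero2 (x z : LG G) : B6b_J x 0 z = 0 := by
  simp only [B6b_J, map_zero, AddMonoidHom.zero_apply, add_zero]
theorem B6b_zero3 (x y : LG G) : B6b_J x y 0 = 0 := by
  simp only [B6b_J, map_zero, AddMonoidHom.zero_apply, add_zero]

theorem B6b_J_eq_zero (x y z : LG G) : B6b_J x y z = 0 := by
  revert x
  apply LG_ind
  · exact B6b_zero1 y z
  · intro a b ha hb
    rw [B6b_add1, ha, hb, add_zero]
  · intro a ha
    rw [B6b_neg1, ha, neg_zero]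
  intro i X hX
  revert y
  apply LG_ind
  · exact B6b_zero2 _ z
  · intro a b ha hb
    rw [B6b_add2, ha, hb, add_zero]
  · intro a ha
    rw [B6b_neg2, ha, neg_zero]
  intro j Y hY
  revert z
  apply LG_ind
  · exact B6b_zero3 _ _
  · intro a b ha hb
    rw [B6b_add3, ha, hb, add_zero]
  · intro a ha
    rw [B6b_neg3, ha, neg_zero]
  intro k Z hZ
  exact hall_witt_el i j k hX hY hZ

theorem gbr_jacobi (x y z : LG G) :
    gbr G (gbr G y x) z + gbr G (gbr G z y) x + gbr G (gbr G x z) y = 0 := B6b_J_eq_zero x y z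
theorem gbr_leibniz (x y z : LG G) :
    gbr G x (gbr G y z) = gbr G (gbr G x y) z + gbr G y (gbr G x z) := by
  have h1 : gbr G x (gbr G y z) = gbr G (gbr G z y) x := by
    rw [eq_neg_of_add_eq_zero_left (gbr_skew x (gbr G y z)),
      eq_neg_of_add_eq_zero_left (gbr_skew y z), map_neg, AddMonoidHom.neg_apply, neg_neg]
  have h2 : gbr G (gbr G x y) z = - gbr G (gbr G y x) z := by
    rw [eq_neg_of_add_eq_zero_left (gbr_skew x y), map_neg, AddMonoidHom.neg_apply]
  have h3 : gbr G y (gbr G x z) = - gbr G (gbr G x z) y :=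
    eq_neg_of_add_eq_zero_left (gbr_skew _ _)
  rw [h1, h2, h3]
  have J := gbr_jacobi x y z
  calc gbr G (gbr G z y) x
      = (gbr G (gbr G y x) z + gbr G (gbr G z y) x + gbr G (gbr G x z) y)
        + (- gbr G (gbr G y x) z + - gbr G (gbr G x z) y) := by abel
    _ = - gbr G (gbr G y x) z + - gbr G (gbr G x z) y := by rw [J, zero_add]

end Cfsg.Agent.Lib.Helper6.HKK
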