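import Cfsg.Agent.Lib.Helper6.HKK.DefsB
import Cfsg.Agent.Lib.Helper6.HKK.B1
import Cfsg.Agent.Lib.Helper6.HKK.B2c
import Cfsg.Agent.Lib.Helper6.HKK.B3b
import Cfsg.Agent.Lib.Helper6.HKK.B5
import Cfsg.Agent.Lib.Helper6.HKK.B6b

/-!
# HKK piece B7

(done by helper6) the Lie ring structure.
-/

set_option autoImplicit false
set_option linter.unusedSectionVars false

open scoped commutatorElement

namespace Cfsg.Agent.Lib.Helper6.HKK

universe u

variable (G : Type u) [Group G] [Finite G]

noncomputable instance : LieRing (LG G) where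
  bracket x y := gbr G x y
  add_lie x y z := by
    show gbr G (x + y) z = gbr G x z + gbr G y z
    rw [map_add, AddMonoidHom.add_apply]
  lie_add x y z := by
    show gbr G x (y + z) = gbr G x y + gbr G x z
    rw [map_add]
  lie_self x := gbr_self x
  leibniz_lie x y z := gbr_leibniz x y z

variable {G}

theorem lie_def (x y : LG G) : ⁅x, y⁆ = gbr G x y := rfl

theorem lie_el (i j : ℕ) {g h : G} (hg : g ∈ Gm G i) (hh : h ∈ Gm G j) :
    ⁅el G i g, el G j h⁆ = el G (i + j + 1) ⁅g, h⁆ := gbr_el i j hg hh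

end Cfsg.Agent.Lib.Helper6.HKK
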