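import Cfsg.Agent.Lib.Helper6.HKK.DefsB
import Cfsg.Agent.Lib.Helper6.HKK.B1
import Cfsg.Agent.Lib.Helper6.HKK.B2
import Cfsg.Agent.Lib.Helper6.HKK.B2b
import Cfsg.Agent.Lib.Helper6.HKK.B2c
import Cfsg.Agent.Lib.Helper6.HKK.B7

/-!
# HKK piece B8a

`exists_phi`: for each m, `lift_io m (fun g => el G m (α g))` (`map_mul`, `el_mul`, `alpha_mem`; kernel: `alpha_mem` + `el_eq_zero_iff`) gives F m : Gr m →+ LG; φ := DirectSum.toAddMonoid F (`DirectSum.toAddMonoid_of`; unfold `el`, `ofG`, `LG`).
`phi_lie`: `LG_ind` in x and in y (`map_add`, `add_lie`, `lie_add`, `map_neg`, `neg_lie`, `lie_neg`, `map_zero`, `zero_lie`, `lie_zero`); generators: `lie_el`, `phi_el` (with `comm_mem`), `map_commutatorElement`, `alpha_mem`.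
`phi_iter`: induction on n (`Function.iterate_succ_apply'`, `pow_succ'`, `MulAut.mul_apply`); (α^n) g ∈ γ_m by `alpha_mem (α^n)`.
`phi_pow`: `LG_ind` (iterates of an additive hom are additive: `iterate_map_add`, `iterate_map_neg`, `iterate_map_zero`), `phi_iter`, hα.
-/

set_option autoImplicit false
set_option linter.unusedSectionVars false

open scoped commutatorElement

namespace Cfsg.Agent.Lib.Helper6.HKK

universe u

variable (G : Type u) [Group G] [Finite G]

theorem exists_phi (α : MulAut G) : ∃ φ : LG G →+ LG G, ∀ m g, g ∈ Gm G m → φ (el G m g) = el G m (α g) := by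
  classical
  have hF : ∀ m, ∃ F : Gr G m →+ LG G, ∀ g, g ∈ Gm G m → F (io G m g) = el G m (α g) := by
    intro m
    refine lift_io m (fun g => el G m (α g)) ?_ ?_
    · intro g h hg hh
      show el G m (α (g * h)) = _
      rw [map_mul, el_mul m (alpha_mem α hg) (alpha_mem α hh)]
    · intro g hg
      exact (el_eq_zero_iff m (alpha_mem α (Gm_anti (Nat.le_succ m) hg))).2 (alpha_mem α hg)
  choose F hF' using hF
  let φ : DirectSum ℕ (Gr G) →+ LG G := DirectSum.toAddMonoid F
  refine ⟨φ, ?_⟩
  intro m g hg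
  show φ (DirectSum.of (Gr G) m (io G m g)) = _
  simp only [φ]
  rw [DirectSum.toAddMonoid_of]
  exact hF' m g hg

/-- the endomorphism of the associated Lie ring induced by an automorphism -/
noncomputable def phi (α : MulAut G) : LG G →+ LG G := Classical.choose (exists_phi G α)

variable {G}

theorem phi_el (α : MulAut G) (m : ℕ) {g : G} (hg : g ∈ Gm G m) : phi G α (el G m g) = el G m (α g) :=
  Classical.choose_spec (exists_phi G α) m g hg

theorem phi_lie (α : MulAut G) (x y : LG G) : phi G α ⁅x, y⁆ = ⁅phi G α x, phi G α y⁆ := by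
  revert y
  refine LG_ind (fun x => ∀ y, phi G α ⁅x, y⁆ = ⁅phi G α x, phi G α y⁆) ?_ ?_ ?_ ?_ x
  · intro y
    rw [zero_lie, map_zero, zero_lie]
  · intro x x' hx hx' y
    rw [add_lie, map_add, map_add, add_lie, hx, hx']
  · intro x hx y
    rw [neg_lie, map_neg, map_neg, neg_lie, hx]
  · intro i g hg
    refine LG_ind (fun y => phi G α ⁅el G i g, y⁆ = ⁅phi G α (el G i g), phi G α y⁆) ?_ ?_ ?_ ?_
    · rw [lie_zero, map_zero, lie_zero]
    · intro y y' hy hy'
      rw [lie_add, map_add, map_add, lie_add, hy, hy']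
    · intro y hy
      rw [lie_neg, map_neg, map_neg, lie_neg, hy]
    · intro j h hh
      rw [lie_el i j hg hh, phi_el α _ (comm_mem hg hh), phi_el α i hg, phi_el α j hh,
        lie_el i j (alpha_mem α hg) (alpha_mem α hh), map_commutatorElement]
theorem phi_iter (α : MulAut G) (n m : ℕ) {g : G} (hg : g ∈ Gm G m) :
    (phi G α)^[n] (el G m g) = el G m ((α ^ n) g) := by
  induction n with
  | zero => simp
  | succ n ih =>
    rw [Function.iterate_succ_apply', ih, phi_el α m (alpha_mem (α ^ n) hg), pow_succ',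
      MulAut.mul_apply]
theorem phi_pow (α : MulAut G) (p : ℕ) (hα : α ^ p = 1) (x : LG G) : (phi G α)^[p] x = x := by
  refine LG_ind (fun x => (phi G α)^[p] x = x) ?_ ?_ ?_ ?_ x
  · exact iterate_map_zero _ _
  · intro x y hx hy
    rw [iterate_map_add, hx, hy]
  · intro x hx
    rw [iterate_map_neg, hx]
  · intro m g hg
    rw [phi_iter α p m hg, hα, MulAut.one_apply]

end Cfsg.Agent.Lib.Helper6.HKK
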