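import Cfsg.Agent.Lib.Helper6.HKK.DefsB
import Cfsg.Agent.Lib.Helper6.HKK.B1
import Cfsg.Agent.Lib.Helper6.HKK.B2c
import Cfsg.Agent.Lib.Helper6.HKK.B7
import Cfsg.Agent.Lib.Helper6.HKK.B8a

/-!
# HKK piece B8d

Group fact `prod_alpha`: x ↦ x⁻¹ α x is injective by fpf, so surjective as G is finite; for g = x⁻¹ α x the product telescopes to x⁻¹ α^p x = 1.
`el_list_prod`: induction on the list (`el_mul`, `Subgroup.list_prod_mem`, `el_one`).
`phi_sum`: `LG_ind`; for x = el m g: Σ_j el m (α^j g) = el m (Π_j α^j g) = el m 1 = 0.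
-/

set_option autoImplicit false
set_option linter.unusedSectionVars false

open scoped commutatorElement

namespace Cfsg.Agent.Lib.Helper6.HKK

universe u

variable (G : Type u) [Group G] [Finite G]

variable {G}

theorem prod_alpha (α : MulAut G) (p : ℕ) (hα : α ^ p = 1) (hfpf : ∀ g : G, α g = g → g = 1) (g : G) :
    ((List.range p).map (fun k => (α ^ k) g)).prod = 1 := by
  have hinj : Function.Injective (fun x : G => x⁻¹ * α x) := by
    intro x y hxy
    have hxy' : x⁻¹ * α x = y⁻¹ * α y := hxy
    have h1 : α (y * x⁻¹) = y * x⁻¹ := by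
      rw [map_mul, map_inv]
      have h3 : α y = y * (x⁻¹ * α x) := by rw [hxy', mul_inv_cancel_left]
      rw [h3]
      group
    have h2 := hfpf _ h1
    exact (mul_inv_eq_one.1 h2).symm
  obtain ⟨x, rfl⟩ := Finite.surjective_of_injective hinj g
  have key : ∀ n, ((List.range n).map (fun k => (α ^ k) (x⁻¹ * α x))).prod = x⁻¹ * (α ^ n) x := by
    intro n
    induction n with
    | zero => simp
    | succ n ih =>
      rw [List.range_succ, List.map_append, List.prod_append, ih]
      simp only [List.map_cons, List.map_nil, List.prod_cons, List.prod_nil, mul_one, map_mul, map_inv]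
      rw [pow_succ α n, MulAut.mul_apply]
      group
  show ((List.range p).map (fun k => (α ^ k) (x⁻¹ * α x))).prod = 1
  rw [key p, hα, MulAut.one_apply, inv_mul_cancel]

theorem el_list_prod (m : ℕ) (l : List G) (hl : ∀ g ∈ l, g ∈ Gm G m) :
    el G m l.prod = (l.map (fun g => el G m g)).sum := by
  induction l with
  | nil => simp [el_one]
  | cons a l ih =>
    have h1 : ∀ g ∈ l, g ∈ Gm G m := fun g hg => hl g (List.mem_cons_of_mem _ hg)
    rw [List.prod_cons, el_mul m (hl a List.mem_cons_self) (Subgroup.list_prod_mem _ h1), ih h1,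
      List.map_cons, List.sum_cons]

theorem B8d_sum_range {M : Type*} [AddCommMonoid M] (a : ℕ → M) (n : ℕ) :
    ∑ j ∈ Finset.range n, a j = ((List.range n).map a).sum := by
  induction n with
  | zero => simp
  | succ n ih =>
    rw [Finset.sum_range_succ, ih, List.range_succ, List.map_append, List.sum_append]
    simp

theorem phi_sum (α : MulAut G) (p : ℕ) (hα : α ^ p = 1) (hfpf : ∀ g : G, α g = g → g = 1) (x : LG G) :
    ∑ j ∈ Finset.range p, (phi G α)^[j] x = 0 := by
  refine LG_ind (fun x => ∑ j ∈ Finset.range p, (phi G α)^[j] x = 0) ?_ ?_ ?_ ?_ x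
  · simp only [iterate_map_zero, Finset.sum_const_zero]
  · intro x y hx hy
    simp only [iterate_map_add, Finset.sum_add_distrib, hx, hy, add_zero]
  · intro x hx
    simp only [iterate_map_neg, Finset.sum_neg_distrib, hx, neg_zero]
  · intro m g hg
    have h1 : ∀ j, (phi G α)^[j] (el G m g) = el G m ((α ^ j) g) := fun j => phi_iter α j m hg
    simp only [h1]
    have h2 := el_list_prod m ((List.range p).map (fun k => (α ^ k) g)) (by
      intro y hy
      rw [List.mem_map] at hy
      obtain ⟨k, _, rfl⟩ := hy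
      exact alpha_mem (α ^ k) hg)
    rw [prod_alpha α p hα hfpf g, el_one, List.map_map] at h2
    rw [B8d_sum_range]
    exact h2.symm

end Cfsg.Agent.Lib.Helper6.HKK
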