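import Cfsg.Agent.Lib.Helper6.HKK.DefsB
import Cfsg.Agent.Lib.Helper6.HKK.B1
import Cfsg.Agent.Lib.Helper6.HKK.B2c
import Cfsg.Agent.Lib.Helper6.HKK.B7

/-!
# HKK piece B8e

`card_fpf`: |G| ≡ #fixed points = 1 mod p.
`card_smul`: `LG_ind`; (card G) • el m g = el m (g^card G) = el m 1 = 0.
`LG_tor`: p and card G coprime: Bezout.
-/

set_option autoImplicit false
set_option linter.unusedSectionVars false

open scoped commutatorElement

namespace Cfsg.Agent.Lib.Helper6.HKK

universe u

variable (G : Type u) [Group G] [Finite G]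

variable {G}

theorem card_fpf (α : MulAut G) (p : ℕ) [Fact p.Prime] (hα : α ^ p = 1) (hfpf : ∀ g : G, α g = g → g = 1) :
    ¬ p ∣ Nat.card G := by
  classical
  have : Fintype G := Fintype.ofFinite G
  let f : Function.End G := fun g => α g
  have hiter : ∀ n : ℕ, ∀ g : G, (f ^ n) g = (α ^ n) g := by
    intro n
    induction n with
    | zero => intro g; rfl
    | succ n ih =>
      intro g
      rw [pow_succ, pow_succ]
      change (f ^ n) (f g) = (α ^ n) (α g)
      exact ih (α g)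
  have hf : f ^ p ^ 1 = 1 := by
    funext g
    rw [pow_one, hiter, hα]
    rfl
  have h1 := Equiv.Perm.card_fixedPoints_modEq (f := f) (p := p) (n := 1) hf
  have h2 : Fintype.card (Function.fixedPoints f) = 1 := by
    rw [Fintype.card_eq_one_iff]
    refine ⟨⟨1, ?_⟩, ?_⟩
    · change α 1 = 1
      exact map_one α
    · rintro ⟨g, hg⟩
      apply Subtype.ext
      exact hfpf g hg
  rw [h2, ← Nat.card_eq_fintype_card] at h1
  intro hd
  have h3 : Nat.card G ≡ 0 [MOD p] := (Nat.modEq_zero_iff_dvd).mpr hd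
  have h4 : (1 : ℕ) ≡ 0 [MOD p] := h1.symm.trans h3
  have h5 : p ∣ 1 := (Nat.modEq_zero_iff_dvd).mp h4
  exact (Fact.out : p.Prime).one_lt.ne' (Nat.dvd_one.mp h5)

theorem card_smul (x : LG G) : (Nat.card G) • x = 0 := by
  refine LG_ind (fun x => (Nat.card G) • x = 0) (smul_zero _) ?_ ?_ ?_ x
  · intro x y hx hy
    change (Nat.card G) • (x + y) = 0
    rw [smul_add, hx, hy, add_zero]
  · intro x hx
    change (Nat.card G) • (-x) = 0
    rw [smul_neg, hx, neg_zero]
  · intro m g hg
    change (Nat.card G) • el G m g = 0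
    rw [← el_pow m hg, pow_card_eq_one', el_one]

theorem LG_tor (p : ℕ) [Fact p.Prime] (hp : ¬ p ∣ Nat.card G) (x : LG G) (h : p • x = 0) : x = 0 := by
  have hcop : Nat.Coprime p (Nat.card G) := (Nat.Prime.coprime_iff_not_dvd Fact.out).mpr hp
  have hb := Nat.gcd_eq_gcd_ab p (Nat.card G)
  rw [hcop.gcd_eq_one] at hb
  have h1 : ((p : ℤ) * Nat.gcdA p (Nat.card G) + (Nat.card G : ℤ) * Nat.gcdB p (Nat.card G)) • x = x := by
    rw [← hb]; simp
  rw [← h1, add_smul, mul_comm (p : ℤ), mul_comm (Nat.card G : ℤ), mul_smul, mul_smul,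
    natCast_zsmul, natCast_zsmul, h, card_smul, smul_zero, smul_zero, add_zero]

end Cfsg.Agent.Lib.Helper6.HKK
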