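import Cfsg.Agent.Lib.Helper6.HKK.Defs

/-!
# HKK piece M0

Additivity of `lnb` in its first argument, append, zero entries.
-/

set_option autoImplicit false

namespace Cfsg.Agent.Lib.Helper6.HKK

universe u

variable {n : ℕ} {L : Type u} [LieRing L]

theorem lnb_nil (x : L) : lnb x [] = x := rfl
theorem lnb_cons (x y : L) (l : List L) : lnb x (y :: l) = lnb ⁅x, y⁆ l := rfl
theorem lnb_append (x : L) (l₁ l₂ : List L) : lnb x (l₁ ++ l₂) = lnb (lnb x l₁) l₂ := by
  unfold lnb
  rw [List.foldl_append]
theorem lnb_zero (l : List L) : lnb (0 : L) l = 0 := by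
  induction l with
  | nil => rfl
  | cons y l ih => rw [lnb_cons, zero_lie, ih]
theorem lnb_add (x y : L) (l : List L) : lnb (x + y) l = lnb x l + lnb y l := by
  induction l generalizing x y with
  | nil => rfl
  | cons z l ih => rw [lnb_cons, lnb_cons, lnb_cons, add_lie, ih]
theorem lnb_neg (x : L) (l : List L) : lnb (-x) l = -lnb x l := by
  induction l generalizing x with
  | nil => rfl
  | cons z l ih => rw [lnb_cons, lnb_cons, neg_lie, ih]
theorem lnb_sub (x y : L) (l : List L) : lnb (x - y) l = lnb x l - lnb y l := by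
  rw [sub_eq_add_neg, lnb_add, lnb_neg, sub_eq_add_neg]
/-- a zero entry kills the bracket -/
theorem lnb_eq_zero_of_zero_mem (x : L) (l : List L) (h : (0 : L) ∈ l) : lnb x l = 0 := by
  induction l generalizing x with
  | nil => simp at h
  | cons z l ih =>
    rw [lnb_cons]
    rcases List.mem_cons.1 h with h | h
    · rw [← h, lie_zero, lnb_zero]
    · exact ih _ h
/-- index bookkeeping -/
theorem lnb_mem (S : GS n L) (f : L → ZMod n) (a : ZMod n) (x : L) (l : List L) (hx : x ∈ S.c a)
    (hl : ∀ y ∈ l, y ∈ S.c (f y)) : lnb x l ∈ S.c (a + (l.map f).sum) := by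
  induction l generalizing x a with
  | nil => simpa [lnb_nil] using hx
  | cons z l ih =>
    rw [lnb_cons, List.map_cons, List.sum_cons, ← add_assoc]
    exact ih _ _ (S.lie_mem _ _ _ _ hx (hl z List.mem_cons_self))
      (fun y hy => hl y (List.mem_cons_of_mem _ hy))

end Cfsg.Agent.Lib.Helper6.HKK
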