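import Cfsg.Agent.Lib.Helper6.HKK.DefsB
import Cfsg.Agent.Lib.Helper6.HKK.M0
import Cfsg.Agent.Lib.Helper6.HKK.B1
import Cfsg.Agent.Lib.Helper6.HKK.B2c
import Cfsg.Agent.Lib.Helper6.HKK.B7

/-!
# HKK piece B9

`el_mem_closure`: induction on m, closure induction in `γ_{m+1} = ⁅γ_m, ⊤⁆`.
`Gm_le_of_lnb`: with H the closure is {0}, so el h g = 0, `el_eq_zero_iff`.
-/

set_option autoImplicit false
set_option linter.unusedSectionVars false

open scoped commutatorElement

namespace Cfsg.Agent.Lib.Helper6.HKK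

universe u

variable (G : Type u) [Group G] [Finite G]

variable {G}

theorem B9_lie_mem (m : ℕ) (z y : LG G)
    (hy : y ∈ AddSubgroup.closure
      {z : LG G | ∃ (x : LG G) (l : List (LG G)), l.length = m ∧ z = lnb x l}) :
    ⁅y, z⁆ ∈ AddSubgroup.closure
      {z : LG G | ∃ (x : LG G) (l : List (LG G)), l.length = m + 1 ∧ z = lnb x l} := by
  induction hy using AddSubgroup.closure_induction with
  | mem y hy =>
    obtain ⟨x, l, hl, rfl⟩ := hy
    apply AddSubgroup.subset_closure
    refine ⟨x, l ++ [z], by simp [hl], ?_⟩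
    rw [lnb_append, lnb_cons, lnb_nil]
  | zero =>
    rw [zero_lie]
    exact AddSubgroup.zero_mem _
  | add a b _ _ ha hb =>
    rw [add_lie]
    exact AddSubgroup.add_mem _ ha hb
  | neg a _ ha =>
    rw [neg_lie]
    exact AddSubgroup.neg_mem _ ha

theorem el_mem_closure (m : ℕ) (g : G) (hg : g ∈ Gm G m) :
    el G m g ∈ AddSubgroup.closure {z : LG G | ∃ (x : LG G) (l : List (LG G)), l.length = m ∧ z = lnb x l} := by
  induction m generalizing g with
  | zero =>
    apply AddSubgroup.subset_closure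
    exact ⟨el G 0 g, [], rfl, (lnb_nil _).symm⟩
  | succ m ih =>
    have hg' : g ∈ Subgroup.closure {g | ∃ g₁ ∈ Gm G m, ∃ g₂ ∈ (⊤ : Subgroup G), ⁅g₁, g₂⁆ = g} := by
      have : g ∈ ⁅Gm G m, (⊤ : Subgroup G)⁆ := hg
      rwa [Subgroup.commutator_def] at this
    clear hg
    have key : g ∈ Gm G (m + 1) ∧ el G (m + 1) g ∈ AddSubgroup.closure
        {z : LG G | ∃ (x : LG G) (l : List (LG G)), l.length = m + 1 ∧ z = lnb x l} := by
      induction hg' using Subgroup.closure_induction with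
      | mem g hg =>
        obtain ⟨a, ha, b, hb, rfl⟩ := hg
        refine ⟨Subgroup.commutator_mem_commutator ha hb, ?_⟩
        have e : ⁅el G m a, el G 0 b⁆ = el G (m + 1) ⁅a, b⁆ := lie_el m 0 ha (mem_Gm_zero b)
        rw [← e]
        exact B9_lie_mem m _ _ (ih a ha)
      | one =>
        refine ⟨Subgroup.one_mem _, ?_⟩
        rw [el_one]
        exact AddSubgroup.zero_mem _
      | mul x y _ _ hx hy =>
        refine ⟨Subgroup.mul_mem _ hx.1 hy.1, ?_⟩
        rw [el_mul (m + 1) hx.1 hy.1]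
        exact AddSubgroup.add_mem _ hx.2 hy.2
      | inv x _ hx =>
        refine ⟨Subgroup.inv_mem _ hx.1, ?_⟩
        rw [el_inv (m + 1) hx.1]
        exact AddSubgroup.neg_mem _ hx.2
    exact key.2

theorem Gm_le_of_lnb (h : ℕ) (H : ∀ (x : LG G) (l : List (LG G)), l.length = h → lnb x l = 0) :
    Gm G h ≤ Gm G (h + 1) := by
  intro g hg
  have h1 := el_mem_closure h g hg
  have h2 : AddSubgroup.closure
      {z : LG G | ∃ (x : LG G) (l : List (LG G)), l.length = h ∧ z = lnb x l} ≤ ⊥ := by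
    rw [AddSubgroup.closure_le]
    rintro z ⟨x, l, hl, rfl⟩
    rw [H x l hl]
    exact AddSubgroup.zero_mem _
  have h3 : el G h g = 0 := (AddSubgroup.mem_bot).1 (h2 h1)
  exact (el_eq_zero_iff h hg).1 h3

end Cfsg.Agent.Lib.Helper6.HKK
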