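import Cfsg.Agent.Lib.Helper6.HKK.DefsB
import Cfsg.Agent.Lib.Helper6.HKK.B1

/-!
# HKK piece C1

γ_h ≤ γ_{h+1} ≤ γ_h so γ_{h+1} = γ_h; by induction γ_{h+k} = γ_h.  Nilpotency gives c with γ_c = ⊥;
γ_h = γ_{h+c} ≤ γ_c = ⊥.
-/

set_option autoImplicit false
set_option linter.unusedSectionVars false

open scoped commutatorElement

namespace Cfsg.Agent.Lib.Helper6.HKK

universe u

variable (G : Type u) [Group G] [Finite G]

variable {G}

theorem Gm_eq_bot (hn : Group.IsNilpotent G) (h : ℕ) (hle : Gm G h ≤ Gm G (h + 1)) : Gm G h = ⊥ := by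
  have heq : Gm G (h + 1) = Gm G h := le_antisymm (Gm_anti (Nat.le_succ h)) hle
  have hall : ∀ k : ℕ, Gm G (h + k) = Gm G h := by
    intro k
    induction k with
    | zero => rfl
    | succ k ih =>
      have e1 : Gm G (h + (k + 1)) = ⁅Gm G (h + k), (⊤ : Subgroup G)⁆ := rfl
      have e2 : Gm G (h + 1) = ⁅Gm G h, (⊤ : Subgroup G)⁆ := rfl
      rw [e1, ih, ← e2, heq]
  obtain ⟨c, hc⟩ := Subgroup.nilpotent_iff_lowerCentralSeries.1 hn
  have h1 : Gm G (h + c) ≤ Gm G c := Gm_anti (Nat.le_add_left c h)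
  rw [hall c] at h1
  have hc' : Gm G c = ⊥ := hc
  rw [hc'] at h1
  exact le_bot_iff.1 h1

end Cfsg.Agent.Lib.Helper6.HKK
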