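import Mathlib

/-!
# HKK farm (S3779): definitions

Graded systems in a Lie ring (no directness, no spanning assumed), their derived systems, the
subsystem generated by the components of index `> k`, left-normed brackets.
-/

set_option autoImplicit false

namespace Cfsg.Agent.Lib.Helper6.HKK

universe u

/-- left-normed bracket `⁅…⁅⁅x, y₁⁆, y₂⁆ …, yₘ⁆`. -/
def lnb {L : Type u} [LieRing L] (x : L) (l : List L) : L := l.foldl (fun a b => ⁅a, b⁆) x

/-- A `ℤ/n`-graded system of additive subgroups of a Lie ring with trivial `0`-component. -/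
structure GS (n : ℕ) (L : Type u) [LieRing L] where
  c : ZMod n → AddSubgroup L
  lie_mem : ∀ i j x y, x ∈ c i → y ∈ c j → ⁅x, y⁆ ∈ c (i + j)
  zero : c 0 = ⊥

variable {n : ℕ} {L : Type u} [LieRing L]

/-- homogeneous elements -/
def GS.Hom (S : GS n L) (x : L) : Prop := ∃ i, x ∈ S.c i

/-- componentwise inclusion -/
def GS.le (S T : GS n L) : Prop := ∀ i, S.c i ≤ T.c i

/-- the components of the derived system -/
def GS.derC (S : GS n L) (k : ZMod n) : AddSubgroup L :=
  AddSubgroup.closure {z | ∃ i j x y, i + j = k ∧ x ∈ S.c i ∧ y ∈ S.c j ∧ z = ⁅x, y⁆}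

theorem GS.derC_le (S : GS n L) (k : ZMod n) : S.derC k ≤ S.c k := by
  unfold GS.derC
  rw [AddSubgroup.closure_le]
  rintro z ⟨i, j, x, y, rfl, hx, hy, rfl⟩
  exact S.lie_mem i j x y hx hy

/-- the derived system -/
def GS.der (S : GS n L) : GS n L where
  c := S.derC
  lie_mem := by
    intro i j x y hx hy
    exact AddSubgroup.subset_closure ⟨i, j, x, y, rfl, S.derC_le i hx, S.derC_le j hy, rfl⟩
  zero := by
    have := S.derC_le 0
    rw [S.zero] at this
    exact le_bot_iff.1 this

/-- iterated derived system -/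
def GS.derN (S : GS n L) : ℕ → GS n L
  | 0 => S
  | m + 1 => (S.derN m).der

/-- membership in the graded subsystem generated by the components of index `> k` -/
inductive GS.HG (S : GS n L) (k : ℕ) : ZMod n → L → Prop
  | gen (i : ZMod n) (x : L) : k < i.val → x ∈ S.c i → GS.HG S k i x
  | zero (i : ZMod n) : GS.HG S k i 0
  | add (i : ZMod n) (x y : L) : GS.HG S k i x → GS.HG S k i y → GS.HG S k i (x + y)
  | neg (i : ZMod n) (x : L) : GS.HG S k i x → GS.HG S k i (-x)
  | lie (i j : ZMod n) (x y : L) : GS.HG S k i x → GS.HG S k j y → GS.HG S k (i + j) ⁅x, y⁆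

theorem GS.HG.mem {S : GS n L} {k : ℕ} {i : ZMod n} {x : L} (h : GS.HG S k i x) : x ∈ S.c i := by
  induction h with
  | gen i x _ hx => exact hx
  | zero i => exact (S.c i).zero_mem
  | add i x y _ _ hx hy => exact (S.c i).add_mem hx hy
  | neg i x _ hx => exact (S.c i).neg_mem hx
  | lie i j x y _ _ hx hy => exact S.lie_mem i j x y hx hy

/-- the graded subsystem generated by the components of index `> k` -/
def GS.gen (S : GS n L) (k : ℕ) : GS n L where
  c i :=
    { carrier := {x | GS.HG S k i x}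
      zero_mem' := GS.HG.zero i
      add_mem' := fun {x y} hx hy => GS.HG.add i x y hx hy
      neg_mem' := fun {x} hx => GS.HG.neg i x hx }
  lie_mem := fun i j x y hx hy => GS.HG.lie i j x y hx hy
  zero := by
    rw [eq_bot_iff]
    intro x hx
    have h1 : x ∈ S.c 0 := GS.HG.mem hx
    rw [S.zero] at h1
    exact h1

/-- lower central components of `S.der` relative to `S`:
`LC S 0 = (S.der).c`, `LC S (j+1) k` is spanned by `⁅x, m⁆`, `x ∈ LC S j a`, `m ∈ (S.der).c b`, `a + b = k`. -/
def GS.LC (S : GS n L) : ℕ → ZMod n → AddSubgroup L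
  | 0 => S.der.c
  | j + 1 => fun k =>
      AddSubgroup.closure {z | ∃ a b x m, a + b = k ∧ x ∈ GS.LC S j a ∧ m ∈ S.der.c b ∧ z = ⁅x, m⁆}

/-- forces the on-demand equation lemmas of `GS.LC` to be written in this file (one copy only) -/
theorem GS.LC_eqns_here (S : GS n L) (j : ℕ) : True := by
  have _h1 := GS.LC.eq_1 S
  have _h2 := GS.LC.eq_2 S j
  have _h3 := GS.LC.eq_def S j
  trivial

/-- the sum of the components `LC S j k` -/
def GS.LCt (S : GS n L) (j : ℕ) : AddSubgroup L := ⨆ k, S.LC j k

/-- the Kreknin–Kostrikin function `ξ(s) = ∑_{i<s} (p-1)^i` -/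
def xi (p s : ℕ) : ℕ := Finset.sum (Finset.range s) (fun i => (p - 1) ^ i)

end Cfsg.Agent.Lib.Helper6.HKK
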