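import Cfsg.Agent.Lib.Helper6.HKK.Defs

/-!
# HKK farm (S3779): definitions for the associated Lie ring of the lower central series

`Gm G m = γ_{m+1}(G)` (Mathlib indexing), `Gr G m = γ_{m+1}/γ_{m+2}` written additively
(we take the abelianization of the quotient only to get the `AddCommGroup` instance for free: the quotient is already abelian),
`io G m g` = class of `g` (junk value `0` if `g ∉ Gm G m`), `LG G = ⨁ m, Gr G m`, `el G m g = of m (io G m g)`.
-/

set_option autoImplicit false

namespace Cfsg.Agent.Lib.Helper6.HKK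

universe u

variable (G : Type u) [Group G]

/-- `γ_{m+1}(G)` -/
abbrev Gm (m : ℕ) : Subgroup G := (⊤ : Subgroup G).lowerCentralSeries m

/-- `γ_{m+1}(G)/γ_{m+2}(G)`, additively -/
def Gr (m : ℕ) : Type u :=
  Additive (Abelianization (↥(Gm G m) ⧸ (Gm G (m + 1)).subgroupOf (Gm G m)))

instance (m : ℕ) : AddCommGroup (Gr G m) :=
  inferInstanceAs (AddCommGroup (Additive (Abelianization (↥(Gm G m) ⧸ (Gm G (m + 1)).subgroupOf (Gm G m)))))

open Classical in
/-- the class of `g ∈ γ_{m+1}` in `Gr G m` (and `0` for `g ∉ γ_{m+1}`) -/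
noncomputable def io (m : ℕ) (g : G) : Gr G m :=
  if h : g ∈ Gm G m then
    (Additive.ofMul (Abelianization.of (QuotientGroup.mk (⟨g, h⟩ : ↥(Gm G m)))) :
      Additive (Abelianization (↥(Gm G m) ⧸ (Gm G (m + 1)).subgroupOf (Gm G m))))
  else 0

/-- the underlying additive group of the associated Lie ring -/
def LG : Type u := DirectSum ℕ (Gr G)

noncomputable instance : AddCommGroup (LG G) := inferInstanceAs (AddCommGroup (DirectSum ℕ (Gr G)))

/-- homogeneous elements of `LG G` -/
noncomputable def ofG (m : ℕ) : Gr G m →+ LG G := DirectSum.of (Gr G) m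

/-- the element of degree `m` defined by `g` -/
noncomputable def el (m : ℕ) (g : G) : LG G := ofG G m (io G m g)

end Cfsg.Agent.Lib.Helper6.HKK
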