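import Cfsg.Agent.Lib.Helper6.HKK.Defs

/-!
# HKK farm (S3779): definitions for the extension of scalars `ℤ[C_p] ⊗ L`
-/

set_option autoImplicit false

open scoped TensorProduct

namespace Cfsg.Agent.Lib.Helper6.HKK

universe u

/-- the group ring `ℤ[C_p]` -/
abbrev RA (p : ℕ) : Type := MonoidAlgebra ℤ (Multiplicative (ZMod p))

/-- `t^m` -/
noncomputable def tt (p : ℕ) (m : ZMod p) : RA p := MonoidAlgebra.of ℤ _ (Multiplicative.ofAdd m)

/-- `ℤ[C_p] ⊗ L` (a Lie ring by `LieAlgebra.ExtendScalars`) -/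
abbrev LH (p : ℕ) (L : Type u) [LieRing L] : Type u := RA p ⊗[ℤ] L

/-- the `k`-th "eigen-component" `∑_j t^(-jk) ⊗ φ^j x` -/
noncomputable def comp (p : ℕ) [NeZero p] {L : Type u} [LieRing L] (φ : L →+ L) (k : ZMod p) (x : L) : LH p L :=
  ∑ j : ZMod p, tt p (-(j * k)) ⊗ₜ[ℤ] (φ^[j.val] x)

/-- `u = p - σ`, `σ = ∑_m t^m` -/
noncomputable def uu (p : ℕ) [NeZero p] : RA p := (p : RA p) - ∑ m : ZMod p, tt p m

/-- forces the on-demand congruence lemma of `uu` to be written in this file (one copy only) -/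
theorem uu_congr_here (p : ℕ) [NeZero p] : True := by
  have _h1 := uu.congr_simp p
  trivial

noncomputable example (p : ℕ) (L : Type u) [LieRing L] : LieRing (LH p L) := inferInstance

example (p : ℕ) (L : Type u) [LieRing L] (a b : RA p) (x y : L) :
    ⁅a ⊗ₜ[ℤ] x, b ⊗ₜ[ℤ] y⁆ = (a * b) ⊗ₜ[ℤ] ⁅x, y⁆ := LieAlgebra.ExtendScalars.bracket_tmul _ _ _ _ _ _ _ _

end Cfsg.Agent.Lib.Helper6.HKK
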