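import Cfsg.Agent.Lib.Helper6.HKK.DefsE

/-!
# HKK piece E0
-/

set_option autoImplicit false

open scoped TensorProduct

namespace Cfsg.Agent.Lib.Helper6.HKK

universe u

variable {L : Type u} [LieRing L]

theorem tt_add (p : ℕ) (a b : ZMod p) : tt p (a + b) = tt p a * tt p b := by
  unfold tt
  rw [ofAdd_add, map_mul]

theorem tt_zero (p : ℕ) : tt p 0 = 1 := by
  unfold tt
  rw [ofAdd_zero, map_one]

theorem E0_iter_mod (p : ℕ) (φ : L →+ L) (hpow : ∀ x, φ^[p] x = x) (n : ℕ) (x : L) :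
    φ^[n % p] x = φ^[n] x := by
  conv_rhs => rw [← Nat.mod_add_div n p, Function.iterate_add_apply, Function.iterate_mul,
    Function.iterate_fixed (hpow x)]

theorem iter_add (p : ℕ) [NeZero p] (φ : L →+ L) (hpow : ∀ x, φ^[p] x = x) (j d : ZMod p) (x : L) :
    φ^[(j + d).val] x = φ^[j.val] (φ^[d.val] x) := by
  rw [ZMod.val_add, E0_iter_mod p φ hpow, Function.iterate_add_apply]

theorem iter_lie (φ : L →+ L) (hφ : ∀ x y, φ ⁅x, y⁆ = ⁅φ x, φ y⁆) (m : ℕ) (x y : L) :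
    φ^[m] ⁅x, y⁆ = ⁅φ^[m] x, φ^[m] y⁆ := by
  induction m generalizing x y with
  | zero => rfl
  | succ m ih =>
    rw [Function.iterate_succ_apply, Function.iterate_succ_apply, Function.iterate_succ_apply, hφ, ih]

theorem smul_tmul_RA (p : ℕ) (a b : RA p) (x : L) : a • (b ⊗ₜ[ℤ] x : LH p L) = (a * b) ⊗ₜ[ℤ] x := by
  rw [TensorProduct.smul_tmul', smul_eq_mul]

theorem smul_lie_RA (p : ℕ) (a b : RA p) (X Y : LH p L) : ⁅a • X, b • Y⁆ = (a * b) • ⁅X, Y⁆ := by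
  have h1 := smul_lie a X (b • Y)
  have h2 := lie_smul b X Y
  rw [h1, h2, smul_smul]

end Cfsg.Agent.Lib.Helper6.HKK
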