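import Cfsg.Agent.Lib.Helper6.HKK.DefsE
import Cfsg.Agent.Lib.Helper6.HKK.E0

/-!
# HKK piece E1a

⁅comp k x, comp l y⁆ = Σ_{j,j'} t^(-jk-j'l) ⊗ ⁅φ^j x, φ^j' y⁆ (`LieAlgebra.ExtendScalars.bracket_tmul`, `sum_lie`, `lie_sum`, `tt_add`).
Substitute j' = j + d (`Equiv.addLeft j`/`Fintype.sum_equiv`), swap the sums: = Σ_d Σ_j t^(-dl) t^(-j(k+l)) ⊗ φ^j ⁅x, φ^d y⁆ (`iter_add`, `iter_lie`) = Σ_d t^(-dl) • comp (k+l) ⁅x, φ^d y⁆.
-/

set_option autoImplicit false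

open scoped TensorProduct

namespace Cfsg.Agent.Lib.Helper6.HKK

universe u

variable {L : Type u} [LieRing L]

theorem comp_lie (p : ℕ) [NeZero p] (φ : L →+ L) (hφ : ∀ x y, φ ⁅x, y⁆ = ⁅φ x, φ y⁆) (hpow : ∀ x, φ^[p] x = x)
    (k l : ZMod p) (x y : L) :
    ⁅comp p φ k x, comp p φ l y⁆ = ∑ d : ZMod p, tt p (-(d * l)) • comp p φ (k + l) ⁅x, φ^[d.val] y⁆ := by
  unfold comp
  rw [sum_lie_sum]
  simp only [Finset.smul_sum, smul_tmul_RA]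
  conv_rhs => rw [Finset.sum_comm]
  apply Finset.sum_congr rfl
  intro j _
  rw [← Equiv.sum_comp (Equiv.addLeft j)]
  apply Finset.sum_congr rfl
  intro d _
  rw [LieAlgebra.ExtendScalars.bracket_tmul, Equiv.coe_addLeft, iter_add p φ hpow, iter_lie φ hφ,
    ← tt_add, ← tt_add]
  congr 2
  ring

end Cfsg.Agent.Lib.Helper6.HKK
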