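import Cfsg.Agent.Lib.Helper6.HKK.DefsE
import Cfsg.Agent.Lib.Helper6.HKK.E0

/-!
# HKK piece E1b

comp 0 x = Σ_j t^0 ⊗ φ^j x = 1 ⊗ Σ_j φ^(j.val) x (`TensorProduct.tmul_sum`), and Σ over j : ZMod p of φ^[j.val] x = Σ over range p (bijection `ZMod.val`).
-/

set_option autoImplicit false

open scoped TensorProduct

namespace Cfsg.Agent.Lib.Helper6.HKK

universe u

variable {L : Type u} [LieRing L]

theorem sum_zmod_iter (p : ℕ) [NeZero p] (φ : L →+ L) (x : L) :
    ∑ j : ZMod p, φ^[j.val] x = ∑ j ∈ Finset.range p, φ^[j] x := by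
  refine Finset.sum_bij (fun (j : ZMod p) _ => j.val) ?_ ?_ ?_ ?_
  · intro j _
    exact Finset.mem_range.2 (ZMod.val_lt j)
  · intro a _ b _ h
    exact ZMod.val_injective p h
  · intro b hb
    exact ⟨(b : ZMod p), Finset.mem_univ _, ZMod.val_cast_of_lt (Finset.mem_range.1 hb)⟩
  · intro a _
    rfl

theorem comp_zero (p : ℕ) [NeZero p] (φ : L →+ L) (hsum : ∀ x, ∑ j ∈ Finset.range p, φ^[j] x = 0) (x : L) :
    comp p φ 0 x = 0 := by
  unfold comp
  simp only [mul_zero, neg_zero]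
  rw [← TensorProduct.tmul_sum, sum_zmod_iter, hsum, TensorProduct.tmul_zero]

end Cfsg.Agent.Lib.Helper6.HKK
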