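import Cfsg.Agent.Lib.Helper6.HKK.DefsE
import Cfsg.Agent.Lib.Helper6.HKK.E0
import Cfsg.Agent.Lib.Helper6.HKK.E1a
import Cfsg.Agent.Lib.Helper6.HKK.E1b

/-!
# HKK piece E1

S.c k := AddSubgroup.closure {X | ∃ m x, X = tt p m • comp p φ k x}.
lie_mem: closure induction in both arguments; ⁅t^m • comp k x, t^m' • comp l y⁆ = t^(m+m') • Σ_d t^(-dl) • comp (k+l) (…) (`smul_lie_RA`, `comp_lie`, `Finset.smul_sum`, `smul_smul`, `tt_add`), a sum of generators.
zero: `comp_zero`, `smul_zero`.
-/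

set_option autoImplicit false

open scoped TensorProduct

namespace Cfsg.Agent.Lib.Helper6.HKK

universe u

variable {L : Type u} [LieRing L]

theorem exists_GS (p : ℕ) [NeZero p] (φ : L →+ L) (hφ : ∀ x y, φ ⁅x, y⁆ = ⁅φ x, φ y⁆) (hpow : ∀ x, φ^[p] x = x)
    (hsum : ∀ x, ∑ j ∈ Finset.range p, φ^[j] x = 0) :
    ∃ S : GS p (LH p L), ∀ k x, comp p φ k x ∈ S.c k := by
  let C : ZMod p → AddSubgroup (LH p L) := fun k =>
    AddSubgroup.closure {X | ∃ (m : ZMod p) (x : L), X = tt p m • comp p φ k x}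
  refine ⟨⟨C, ?_, ?_⟩, ?_⟩
  · intro i j X Y hX hY
    induction hX using AddSubgroup.closure_induction with
    | mem X hX =>
      obtain ⟨m, x, rfl⟩ := hX
      induction hY using AddSubgroup.closure_induction with
      | mem Y hY =>
        obtain ⟨m', y, rfl⟩ := hY
        rw [smul_lie_RA, comp_lie p φ hφ hpow, Finset.smul_sum]
        apply AddSubgroup.sum_mem
        intro d _
        rw [smul_smul, ← tt_add, ← tt_add]
        exact AddSubgroup.subset_closure ⟨_, _, rfl⟩
      | zero => rw [lie_zero]; exact AddSubgroup.zero_mem _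
      | add a b _ _ ha hb => rw [lie_add]; exact AddSubgroup.add_mem _ ha hb
      | neg a _ ha => rw [lie_neg]; exact AddSubgroup.neg_mem _ ha
    | zero => rw [zero_lie]; exact AddSubgroup.zero_mem _
    | add a b _ _ ha hb => rw [add_lie]; exact AddSubgroup.add_mem _ ha hb
    | neg a _ ha => rw [neg_lie]; exact AddSubgroup.neg_mem _ ha
  · rw [eq_bot_iff, AddSubgroup.closure_le]
    rintro _ ⟨m, x, rfl⟩
    rw [comp_zero p φ hsum, smul_zero]
    exact AddSubgroup.zero_mem _
  · intro k x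
    apply AddSubgroup.subset_closure
    exact ⟨0, x, by rw [tt_zero, one_smul]⟩

end Cfsg.Agent.Lib.Helper6.HKK
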