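import Cfsg.Agent.Lib.Helper6.HKK.DefsE
import Cfsg.Agent.Lib.Helper6.HKK.E0
import Cfsg.Agent.Lib.Helper6.HKK.E1b

/-!
# HKK piece E2

Σ_k comp k x = Σ_j (Σ_k t^(-jk)) ⊗ φ^j x.  For j = 0 the inner sum is p; for j ≠ 0, k ↦ -(j*k) is a bijection of ZMod p (p prime, field) so it is σ.
So the total is p ⊗ x + σ ⊗ Σ_{j≠0} φ^j x = p ⊗ x + σ ⊗ (-x) = (p - σ) ⊗ x, using Σ_{j : ZMod p} φ^[j.val] x = 0 (from hsum as in E1b).
-/

set_option autoImplicit false

open scoped TensorProduct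

namespace Cfsg.Agent.Lib.Helper6.HKK

universe u

variable {L : Type u} [LieRing L]

theorem sum_tt_neg_mul (p : ℕ) [Fact p.Prime] (j : ZMod p) :
    ∑ k : ZMod p, tt p (-(j * k)) = (∑ m : ZMod p, tt p m) + if j = 0 then uu p else 0 := by
  by_cases hj : j = 0
  · subst hj
    simp [tt_zero, uu]
  · rw [if_neg hj, add_zero]
    refine Fintype.sum_bijective (fun k => -(j * k)) ?_ _ _ (fun _ => rfl)
    refine ⟨?_, ?_⟩
    · intro a b hab
      have h1 : j * a = j * b := neg_injective hab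
      exact mul_left_cancel₀ hj h1
    · intro b
      refine ⟨-(j⁻¹ * b), ?_⟩
      show -(j * -(j⁻¹ * b)) = b
      rw [mul_neg, neg_neg, ← mul_assoc, mul_inv_cancel₀ hj, one_mul]

theorem sum_comp (p : ℕ) [Fact p.Prime] (φ : L →+ L) (hsum : ∀ x, ∑ j ∈ Finset.range p, φ^[j] x = 0) (x : L) :
    ∑ k : ZMod p, comp p φ k x = uu p ⊗ₜ[ℤ] x := by
  unfold comp
  rw [Finset.sum_comm]
  simp_rw [← TensorProduct.sum_tmul, sum_tt_neg_mul, TensorProduct.add_tmul, Finset.sum_add_distrib,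
    ← TensorProduct.tmul_sum]
  rw [sum_zmod_iter, hsum, TensorProduct.tmul_zero, zero_add]
  rw [Finset.sum_eq_single (0 : ZMod p)]
  · simp
  · intro b _ hb
    rw [if_neg hb, TensorProduct.zero_tmul]
  · intro h
    exact absurd (Finset.mem_univ _) h

end Cfsg.Agent.Lib.Helper6.HKK
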