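import Cfsg.Agent.Lib.Helper6.HKK.DefsE
import Cfsg.Agent.Lib.Helper6.HKK.M0

/-!
# HKK piece E4

Induction on l (generalizing x and the power): ⁅a^m ⊗ x, a ⊗ y⁆ = a^(m+1) ⊗ ⁅x,y⁆ (`LieAlgebra.ExtendScalars.bracket_tmul`).
-/

set_option autoImplicit false

open scoped TensorProduct

namespace Cfsg.Agent.Lib.Helper6.HKK

universe u

variable {L : Type u} [LieRing L]

theorem E4_aux (p : ℕ) (a : RA p) (l : List L) : ∀ (x : L) (m : ℕ),
    lnb ((a ^ m) ⊗ₜ[ℤ] x : LH p L) (l.map (fun y => a ⊗ₜ[ℤ] y)) = (a ^ (l.length + m)) ⊗ₜ[ℤ] lnb x l := by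
  induction l with
  | nil =>
    intro x m
    simp [lnb_nil]
  | cons y l ih =>
    intro x m
    rw [List.map_cons, lnb_cons, lnb_cons, LieAlgebra.ExtendScalars.bracket_tmul, ← pow_succ, ih,
      List.length_cons]
    congr 2
    omega

theorem lnb_tmul (p : ℕ) (a : RA p) (x : L) (l : List L) :
    lnb (a ⊗ₜ[ℤ] x : LH p L) (l.map (fun y => a ⊗ₜ[ℤ] y)) = (a ^ (l.length + 1)) ⊗ₜ[ℤ] lnb x l := by
  have := E4_aux p a l x 1
  rwa [pow_one] at this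

end Cfsg.Agent.Lib.Helper6.HKK
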