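import Cfsg.Agent.Lib.Helper6.HKK.DefsE
import Cfsg.Agent.Lib.Helper6.HKK.E0

/-!
# HKK piece E5

σ := Σ_m t^m satisfies t^a σ = σ (reindex), so σ² = p σ, u² = p² - 2pσ + pσ = p u, and u^(m+1) = p^m u by induction.
-/

set_option autoImplicit false

open scoped TensorProduct

namespace Cfsg.Agent.Lib.Helper6.HKK

universe u

variable {L : Type u} [LieRing L]

theorem E5_tt_mul_sigma (p : ℕ) [NeZero p] (a : ZMod p) :
    tt p a * ∑ m : ZMod p, tt p m = ∑ m : ZMod p, tt p m := by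
  rw [Finset.mul_sum]
  simp_rw [← tt_add]
  exact Fintype.sum_equiv (Equiv.addLeft a) _ _ (fun _ => rfl)

theorem E5_sigma_sq (p : ℕ) [NeZero p] :
    (∑ m : ZMod p, tt p m) * ∑ m : ZMod p, tt p m = (p : RA p) * ∑ m : ZMod p, tt p m := by
  rw [Finset.sum_mul]
  simp_rw [E5_tt_mul_sigma]
  rw [Finset.sum_const, Finset.card_univ, ZMod.card, nsmul_eq_mul]

theorem E5_uu_sq (p : ℕ) [NeZero p] : uu p * uu p = (p : RA p) * uu p := by
  unfold uu
  have h := E5_sigma_sq p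
  generalize (∑ m : ZMod p, tt p m) = σ at h ⊢
  have : ((p : RA p) - σ) * ((p : RA p) - σ) = (p : RA p) * (p : RA p) - 2 * (p : RA p) * σ + σ * σ := by
    ring
  rw [this, h]
  ring

theorem uu_pow (p : ℕ) [NeZero p] (m : ℕ) : (uu p) ^ (m + 1) = (p : RA p) ^ m * uu p := by
  induction m with
  | zero => simp
  | succ m ih =>
    rw [pow_succ, ih, mul_assoc, E5_uu_sq, pow_succ, mul_assoc]

end Cfsg.Agent.Lib.Helper6.HKK
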