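import Cfsg.Agent.Lib.Helper6.HKK.DefsE
import Cfsg.Agent.Lib.Helper6.HKK.E5

/-!
# HKK piece E6
-/

set_option autoImplicit false

open scoped TensorProduct

namespace Cfsg.Agent.Lib.Helper6.HKK

universe u

variable {L : Type u} [LieRing L]

/-- the coefficient at `t^1` -/
noncomputable def E6_eps (p : ℕ) : RA p →ₗ[ℤ] ℤ :=
  (Finsupp.lapply (Multiplicative.ofAdd (1 : ZMod p))) ∘ₗ
    (MonoidAlgebra.coeffLinearEquiv ℤ).toLinearMap

theorem E6_eps_apply (p : ℕ) (a : RA p) :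
    E6_eps p a = a.coeff (Multiplicative.ofAdd (1 : ZMod p)) := rfl

theorem E6_eps_tt (p : ℕ) (m : ZMod p) : E6_eps p (tt p m) = if m = 1 then 1 else 0 := by
  rw [E6_eps_apply]
  unfold tt
  rw [MonoidAlgebra.of_apply, MonoidAlgebra.coeff_single_apply]
  simp

theorem E6_eps_uu (p : ℕ) [Fact p.Prime] : E6_eps p (uu p) = -1 := by
  unfold uu
  rw [map_sub, map_sum]
  simp_rw [E6_eps_tt]
  rw [Finset.sum_ite_eq' Finset.univ (1 : ZMod p) (fun _ => (1 : ℤ)), if_pos (Finset.mem_univ _),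
    E6_eps_apply, MonoidAlgebra.coeff_natCast, Finsupp.single_apply, if_neg]
  · simp
  · intro h
    have h' : (0 : ZMod p) = 1 := Multiplicative.ofAdd.injective h
    exact zero_ne_one h'

theorem E6_tor (p : ℕ) (htor : ∀ x : L, p • x = 0 → x = 0) (m : ℕ) (z : L)
    (h : (p ^ m) • z = 0) : z = 0 := by
  induction m with
  | zero => simpa using h
  | succ m ih =>
    apply ih
    apply htor
    rw [← mul_smul, ← pow_succ']
    exact h

theorem eq_zero_of_uu_pow_tmul (p : ℕ) [Fact p.Prime] (htor : ∀ x : L, p • x = 0 → x = 0) (m : ℕ) (z : L)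
    (h : ((uu p) ^ (m + 1)) ⊗ₜ[ℤ] z = (0 : LH p L)) : z = 0 := by
  have h1 := congrArg ((TensorProduct.lid ℤ L).toLinearMap ∘ₗ ((E6_eps p).rTensor L)) h
  rw [map_zero, LinearMap.comp_apply, LinearMap.rTensor_tmul, LinearEquiv.coe_coe,
    TensorProduct.lid_tmul, uu_pow, ← Nat.cast_pow, ← nsmul_eq_mul, map_nsmul, E6_eps_uu] at h1
  apply E6_tor p htor m z
  have h2 : ((p ^ m) • (-1 : ℤ)) • z = -((p ^ m) • z) := by
    rw [smul_assoc, neg_smul, one_smul, smul_neg]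
  rw [h2, neg_eq_zero] at h1
  exact h1

end Cfsg.Agent.Lib.Helper6.HKK
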