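import Cfsg.Agent.Lib.Helper6.HKK.Defs
import Cfsg.Agent.Lib.Helper6.HKK.M0

/-!
# HKK piece KK1

`LC S j` is an "ideal": induction on j.
-/

set_option autoImplicit false

namespace Cfsg.Agent.Lib.Helper6.HKK

universe u

variable {n : ℕ} {L : Type u} [LieRing L]

theorem KK1_jacobi (x m y : L) : ⁅⁅x, m⁆, y⁆ = ⁅⁅x, y⁆, m⁆ + ⁅x, ⁅m, y⁆⁆ := by
  rw [leibniz_lie x m y, ← lie_skew ⁅x, y⁆ m]
  abel

theorem LC_le (S : GS n L) (j : ℕ) (a : ZMod n) : S.LC j a ≤ S.c a := by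
  induction j generalizing a with
  | zero => exact S.derC_le a
  | succ j ih =>
    simp only [GS.LC]
    rw [AddSubgroup.closure_le]
    rintro z ⟨a', b', x, m, rfl, hx, hm, rfl⟩
    exact S.lie_mem _ _ _ _ (ih a' hx) (S.derC_le b' hm)

theorem LC_lie (S : GS n L) (j : ℕ) (a b : ZMod n) (x y : L) (hx : x ∈ S.LC j a) (hy : y ∈ S.c b) :
    ⁅x, y⁆ ∈ S.LC j (a + b) := by
  induction j generalizing a b x y with
  | zero => exact AddSubgroup.subset_closure ⟨a, b, x, y, rfl, S.derC_le a hx, hy, rfl⟩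
  | succ j ih =>
    simp only [GS.LC] at hx ⊢
    induction hx using AddSubgroup.closure_induction with
    | mem z hz =>
      obtain ⟨a', b', x', m, rfl, hx', hm, rfl⟩ := hz
      rw [KK1_jacobi]
      apply AddSubgroup.add_mem
      · exact AddSubgroup.subset_closure
          ⟨a' + b, b', ⁅x', y⁆, m, by ring, ih a' b x' y hx' hy, hm, rfl⟩
      · exact AddSubgroup.subset_closure ⟨a', b' + b, x', ⁅m, y⁆, by ring, hx',
          AddSubgroup.subset_closure ⟨b', b, m, y, rfl, S.derC_le b' hm, hy, rfl⟩, rfl⟩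
    | zero => rw [zero_lie]; exact AddSubgroup.zero_mem _
    | add u v _ _ hu hv => rw [add_lie]; exact AddSubgroup.add_mem _ hu hv
    | neg u _ hu => rw [neg_lie]; exact AddSubgroup.neg_mem _ hu

theorem LC_le_LCt (S : GS n L) (j : ℕ) (a : ZMod n) : S.LC j a ≤ S.LCt j :=
  le_iSup (fun k => S.LC j k) a

theorem LCt_lie (S : GS n L) (j : ℕ) (x y : L) (hx : x ∈ S.LCt j) (hy : S.Hom y) :
    ⁅x, y⁆ ∈ S.LCt j := by
  obtain ⟨b, hb⟩ := hy
  unfold GS.LCt at hx
  refine AddSubgroup.iSup_induction (fun k => S.LC j k) (C := fun x => ⁅x, y⁆ ∈ S.LCt j) hx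
    ?_ ?_ ?_
  · intro a x hx
    exact LC_le_LCt S j (a + b) (LC_lie S j a b x y hx hb)
  · rw [zero_lie]; exact AddSubgroup.zero_mem _
  · intro u v hu hv
    rw [add_lie]; exact AddSubgroup.add_mem _ hu hv

theorem lnb_mem_LCt (S : GS n L) (j : ℕ) (x : L) (l : List L) (hx : x ∈ S.LCt j)
    (hl : ∀ y ∈ l, S.Hom y) : lnb x l ∈ S.LCt j := by
  induction l generalizing x with
  | nil => exact hx
  | cons y l ih =>
    exact ih ⁅x, y⁆ (LCt_lie S j x y hx (hl y (by simp))) (fun z hz => hl z (by simp [hz]))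

end Cfsg.Agent.Lib.Helper6.HKK
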