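import Cfsg.Agent.Lib.Helper6.HKK.Defs
import Cfsg.Agent.Lib.Helper6.HKK.KK1

/-!
# HKK piece KK2
-/

set_option autoImplicit false

namespace Cfsg.Agent.Lib.Helper6.HKK

universe u

variable {n : ℕ} {L : Type u} [LieRing L]

theorem LCt_swap (S : GS n L) (j : ℕ) (x y z : L) (hx : x ∈ S.LCt j) (hy : S.Hom y) (hz : S.Hom z) :
    ⁅⁅x, y⁆, z⁆ - ⁅⁅x, z⁆, y⁆ ∈ S.LCt (j + 1) := by
  obtain ⟨b, hb⟩ := hy
  obtain ⟨d, hd⟩ := hz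
  have e : ⁅⁅x, y⁆, z⁆ - ⁅⁅x, z⁆, y⁆ = ⁅x, ⁅y, z⁆⁆ := by
    rw [KK1_jacobi x y z]; abel
  rw [e]
  have hw : ⁅y, z⁆ ∈ S.der.c (b + d) :=
    AddSubgroup.subset_closure ⟨b, d, y, z, rfl, hb, hd, rfl⟩
  unfold GS.LCt at hx
  refine AddSubgroup.iSup_induction (fun k => S.LC j k)
    (C := fun x => ⁅x, ⁅y, z⁆⁆ ∈ S.LCt (j + 1)) hx ?_ ?_ ?_
  · intro a x hx
    apply LC_le_LCt S (j + 1) (a + (b + d))
    simp only [GS.LC]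
    exact AddSubgroup.subset_closure ⟨a, b + d, x, ⁅y, z⁆, rfl, hx, hw, rfl⟩
  · rw [zero_lie]; exact AddSubgroup.zero_mem _
  · intro u v hu hv
    rw [add_lie]; exact AddSubgroup.add_mem _ hu hv

end Cfsg.Agent.Lib.Helper6.HKK
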