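import Cfsg.Agent.Lib.Helper6.HKK.Defs
import Cfsg.Agent.Lib.Helper6.HKK.M0
import Cfsg.Agent.Lib.Helper6.HKK.KK1
import Cfsg.Agent.Lib.Helper6.HKK.KK2

/-!
# HKK piece KK3

Permuting the entries changes `lnb x l` only by an element of LCt (j+1).  `List.Perm` induction with x universally quantified over LCt j:
nil: 0.  cons y: lnb x (y::l) = lnb ⁅x,y⁆ l, ⁅x,y⁆ ∈ LCt j (`LCt_lie`), IH.  swap: lnb x (y::z::l) - lnb x (z::y::l) = lnb (⁅⁅x,y⁆,z⁆ - ⁅⁅x,z⁆,y⁆) l (`lnb_sub`), in LCt (j+1) by `LCt_swap` + `lnb_mem_LCt`.  trans: add the two differences (homogeneity of the middle list from `Perm.mem_iff`).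
-/

set_option autoImplicit false

namespace Cfsg.Agent.Lib.Helper6.HKK

universe u

variable {n : ℕ} {L : Type u} [LieRing L]

theorem lnb_perm (S : GS n L) (j : ℕ) (l l' : List L) (hp : l.Perm l') (hl : ∀ y ∈ l, S.Hom y) :
    ∀ x, x ∈ S.LCt j → lnb x l - lnb x l' ∈ S.LCt (j + 1) := by
  induction hp with
  | nil =>
    intro x _
    rw [sub_self]
    exact zero_mem _
  | cons y _ ih =>
    intro x hx
    rw [lnb_cons, lnb_cons]
    exact ih (fun z hz => hl z (List.mem_cons_of_mem _ hz)) _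
      (LCt_lie S j x y hx (hl y List.mem_cons_self))
  | swap y z l =>
    intro x hx
    rw [lnb_cons, lnb_cons, lnb_cons, lnb_cons, ← lnb_sub]
    refine lnb_mem_LCt S (j + 1) _ l ?_ ?_
    · exact LCt_swap S j x z y hx (hl z List.mem_cons_self)
        (hl y (List.mem_cons_of_mem _ List.mem_cons_self))
    · intro w hw
      exact hl w (List.mem_cons_of_mem _ (List.mem_cons_of_mem _ hw))
  | trans h1 _ ih1 ih2 =>
    intro x hx
    have e1 := ih1 hl x hx
    have e2 := ih2 (fun y hy => hl y (h1.mem_iff.2 hy)) x hx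
    have := add_mem e1 e2
    simpa using this

end Cfsg.Agent.Lib.Helper6.HKK
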