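import Cfsg.Agent.Lib.Helper6.HKK.Defs

/-!
# HKK piece KK4

Subset sums mod p (via Cauchy–Davenport).
-/

set_option autoImplicit false

namespace Cfsg.Agent.Lib.Helper6.HKK

universe u

open scoped Pointwise

/-- the set of the sums of the sublists -/
def KK4_T (p : ℕ) {β : Type*} (f : β → ZMod p) : List β → Finset (ZMod p)
  | [] => {0}
  | y :: l => KK4_T p f l + {0, f y}

theorem KK4_mem (p : ℕ) {β : Type*} (f : β → ZMod p) (l : List β) :
    ∀ s ∈ KK4_T p f l, ∃ l₁ l₂ : List β, l.Perm (l₁ ++ l₂) ∧ (l₁.map f).sum = s := by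
  induction l with
  | nil =>
    intro s hs
    refine ⟨[], [], List.Perm.refl _, ?_⟩
    have : s = 0 := by simpa [KK4_T] using hs
    rw [this]
    rfl
  | cons y l ih =>
    intro s hs
    obtain ⟨s', hs', e, he, rfl⟩ := Finset.mem_add.1 hs
    obtain ⟨l₁, l₂, hperm, hsum⟩ := ih s' hs'
    rw [Finset.mem_insert, Finset.mem_singleton] at he
    rcases he with rfl | rfl
    · refine ⟨l₁, y :: l₂, ?_, by rw [hsum, add_zero]⟩
      exact (List.Perm.cons y hperm).trans List.perm_middle.symm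
    · refine ⟨y :: l₁, l₂, ?_, ?_⟩
      · exact List.Perm.cons y hperm
      · rw [List.map_cons, List.sum_cons, hsum, add_comm]

theorem KK4_card (p : ℕ) [Fact p.Prime] {β : Type*} (f : β → ZMod p) (l : List β)
    (h0 : ∀ y ∈ l, f y ≠ 0) :
    (KK4_T p f l).Nonempty ∧ min p (l.length + 1) ≤ (KK4_T p f l).card := by
  induction l with
  | nil =>
    refine ⟨⟨0, by simp [KK4_T]⟩, ?_⟩
    simp [KK4_T]
  | cons y l ih =>
    obtain ⟨hne, hcard⟩ := ih (fun z hz => h0 z (List.mem_cons_of_mem _ hz))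
    have h2 : ({0, f y} : Finset (ZMod p)).card = 2 :=
      Finset.card_pair (h0 y List.mem_cons_self).symm
    have hne2 : ({0, f y} : Finset (ZMod p)).Nonempty := ⟨0, by simp⟩
    have hcd := ZMod.cauchy_davenport (Fact.out : p.Prime) hne hne2
    rw [h2] at hcd
    refine ⟨hne.add hne2, ?_⟩
    show min p ((y :: l).length + 1) ≤ (KK4_T p f l + {0, f y}).card
    rw [List.length_cons]
    omega

theorem subset_sum (p : ℕ) [Fact p.Prime] {β : Type*} (f : β → ZMod p) (a : ZMod p) (l : List β)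
    (h0 : ∀ y ∈ l, f y ≠ 0) (hl : l.length = p - 1) :
    ∃ l₁ l₂ : List β, l.Perm (l₁ ++ l₂) ∧ a + (l₁.map f).sum = 0 := by
  have hp := (Fact.out : p.Prime).pos
  obtain ⟨-, hcard⟩ := KK4_card p f l h0
  have h1 : (KK4_T p f l).card = Fintype.card (ZMod p) := by
    rw [ZMod.card]
    have := Finset.card_le_univ (KK4_T p f l)
    rw [ZMod.card] at this
    omega
  have h2 : KK4_T p f l = Finset.univ := (Finset.card_eq_iff_eq_univ _).1 h1
  obtain ⟨l₁, l₂, hperm, hsum⟩ := KK4_mem p f l (-a) (by rw [h2]; exact Finset.mem_univ _)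
  exact ⟨l₁, l₂, hperm, by rw [hsum, add_neg_cancel]⟩

end Cfsg.Agent.Lib.Helper6.HKK
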