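import Cfsg.Agent.Lib.Helper6.HKK.Defs
import Cfsg.Agent.Lib.Helper6.HKK.M0
import Cfsg.Agent.Lib.Helper6.HKK.KK1
import Cfsg.Agent.Lib.Helper6.HKK.KK3
import Cfsg.Agent.Lib.Helper6.HKK.KK4

/-!
# HKK piece KK5

Block lemma: p-1 homogeneous entries push LCt j into LCt (j+1).
-/

set_option autoImplicit false

namespace Cfsg.Agent.Lib.Helper6.HKK

universe u

variable {n : ℕ} {L : Type u} [LieRing L]

theorem block (p : ℕ) [Fact p.Prime] {L : Type u} [LieRing L] (S : GS p L) (j : ℕ) (x : L) (l : List L)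
    (hx : x ∈ S.LCt j) (hl : ∀ y ∈ l, S.Hom y) (hlen : l.length = p - 1) : lnb x l ∈ S.LCt (j + 1) := by
  classical
  unfold GS.LCt at hx
  refine AddSubgroup.iSup_induction (S.LC j) (C := fun x => lnb x l ∈ S.LCt (j + 1)) hx ?_ ?_ ?_
  · intro a x hxa
    have hf : ∃ f : L → ZMod p, ∀ y ∈ l, y ∈ S.c (f y) := by
      refine ⟨fun y => if h : S.Hom y then h.choose else 0, ?_⟩
      intro y hy
      simp only [dif_pos (hl y hy)]
      exact (hl y hy).choose_spec
    obtain ⟨f, hf⟩ := hf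
    by_cases h0 : ∃ y ∈ l, f y = 0
    · obtain ⟨y, hy, hy0⟩ := h0
      have h1 := hf y hy
      rw [hy0, S.zero, AddSubgroup.mem_bot] at h1
      rw [lnb_eq_zero_of_zero_mem x l (h1 ▸ hy)]
      exact zero_mem _
    · push Not at h0
      obtain ⟨l₁, l₂, hperm, hsum⟩ := subset_sum p f a l h0 hlen
      have h1 : lnb x l₁ ∈ S.c (a + (l₁.map f).sum) :=
        lnb_mem S f a x l₁ (LC_le S j a hxa)
          (fun y hy => hf y (hperm.mem_iff.2 (List.mem_append_left _ hy)))
      rw [hsum, S.zero, AddSubgroup.mem_bot] at h1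
      have h2 : lnb x (l₁ ++ l₂) = 0 := by rw [lnb_append, h1, lnb_zero]
      have h3 := lnb_perm S j l (l₁ ++ l₂) hperm hl x (LC_le_LCt S j a hxa)
      rwa [h2, sub_zero] at h3
  · rw [lnb_zero]
    exact zero_mem _
  · intro x y hx hy
    rw [lnb_add]
    exact add_mem hx hy

end Cfsg.Agent.Lib.Helper6.HKK
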