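import Cfsg.Agent.Lib.Helper6.HKK.Defs
import Cfsg.Agent.Lib.Helper6.HKK.M0

/-!
# HKK piece KK6
-/

set_option autoImplicit false

namespace Cfsg.Agent.Lib.Helper6.HKK

universe u

variable {n : ℕ} {L : Type u} [LieRing L]

/-- the left-normed brackets of length `j` in homogeneous elements of the derived system -/
def KK6_T (S : GS n L) (j : ℕ) : Set L :=
  {z | ∃ x l, S.der.Hom x ∧ (∀ y ∈ l, S.der.Hom y) ∧ l.length = j ∧ z = lnb x l}

theorem KK6_lie (S : GS n L) (j : ℕ) (x m : L) (hx : x ∈ AddSubgroup.closure (KK6_T S j))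
    (hm : S.der.Hom m) : ⁅x, m⁆ ∈ AddSubgroup.closure (KK6_T S (j + 1)) := by
  induction hx using AddSubgroup.closure_induction with
  | mem z hz =>
    obtain ⟨x0, l, hx0, hl, hlen, rfl⟩ := hz
    refine AddSubgroup.subset_closure ⟨x0, l ++ [m], hx0, ?_, by simp [hlen], ?_⟩
    · intro y hy
      rcases List.mem_append.1 hy with h | h
      · exact hl y h
      · rw [List.mem_singleton] at h
        rw [h]; exact hm
    · simp [lnb, List.foldl_append]
  | zero => rw [zero_lie]; exact AddSubgroup.zero_mem _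
  | add u v _ _ hu hv => rw [add_lie]; exact AddSubgroup.add_mem _ hu hv
  | neg u _ hu => rw [neg_lie]; exact AddSubgroup.neg_mem _ hu

theorem KK6_LC_le (S : GS n L) (j : ℕ) (k : ZMod n) :
    S.LC j k ≤ AddSubgroup.closure (KK6_T S j) := by
  induction j generalizing k with
  | zero =>
    intro z hz
    exact AddSubgroup.subset_closure ⟨z, [], ⟨k, hz⟩, by simp, rfl, rfl⟩
  | succ j ih =>
    simp only [GS.LC]
    rw [AddSubgroup.closure_le]
    rintro z ⟨a, b, x, m, rfl, hx, hm, rfl⟩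
    exact KK6_lie S j x m (ih a hx) ⟨b, hm⟩

theorem LCt_eq_bot (S : GS n L) (c : ℕ)
    (h : ∀ x l, S.der.Hom x → (∀ y ∈ l, S.der.Hom y) → l.length = c → lnb x l = 0) :
    S.LCt c = ⊥ := by
  have hT : AddSubgroup.closure (KK6_T S c) = ⊥ := by
    rw [eq_bot_iff, AddSubgroup.closure_le]
    rintro z ⟨x, l, hx, hl, hlen, rfl⟩
    rw [h x l hx hl hlen]
    exact AddSubgroup.zero_mem _
  unfold GS.LCt
  rw [eq_bot_iff]
  apply iSup_le
  intro k
  rw [← hT]
  exact KK6_LC_le S c k

end Cfsg.Agent.Lib.Helper6.HKK
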