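import Cfsg.Agent.Lib.Helper6.HKK.Defs
import Cfsg.Agent.Lib.Helper6.HKK.M0
import Cfsg.Agent.Lib.Helper6.HKK.KK1
import Cfsg.Agent.Lib.Helper6.HKK.KK5
import Cfsg.Agent.Lib.Helper6.HKK.KK6

/-!
# HKK piece KK7

KK step: if M = S.der has "class ≤ c" then S has "class ≤ (p-1)c+1".
-/

set_option autoImplicit false

namespace Cfsg.Agent.Lib.Helper6.HKK

universe u

variable {n : ℕ} {L : Type u} [LieRing L]

theorem KK7_blocks (p : ℕ) [Fact p.Prime] {L : Type u} [LieRing L] (S : GS p L) (t : ℕ) :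
    ∀ (j : ℕ) (w : L) (l : List L), w ∈ S.LCt j → (∀ y ∈ l, S.Hom y) → l.length = (p - 1) * t →
      lnb w l ∈ S.LCt (j + t) := by
  induction t with
  | zero =>
    intro j w l hw _ hlen
    rw [mul_zero, List.length_eq_zero_iff] at hlen
    rw [hlen, lnb_nil]
    exact hw
  | succ t ih =>
    intro j w l hw hl hlen
    rw [← List.take_append_drop (p - 1) l, lnb_append]
    have h1 : lnb w (l.take (p - 1)) ∈ S.LCt (j + 1) := by
      apply block p S j w _ hw (fun y hy => hl y (List.mem_of_mem_take hy))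
      rw [List.length_take, hlen, mul_add, mul_one]
      omega
    have h2 := ih (j + 1) _ (l.drop (p - 1)) h1 (fun y hy => hl y (List.mem_of_mem_drop hy)) (by
      rw [List.length_drop, hlen, mul_add, mul_one]
      omega)
    have e : j + 1 + t = j + (t + 1) := by omega
    rwa [e] at h2

theorem kk_step (p : ℕ) [Fact p.Prime] {L : Type u} [LieRing L] (S : GS p L) (c : ℕ)
    (h : ∀ x l, S.der.Hom x → (∀ y ∈ l, S.der.Hom y) → l.length = c → lnb x l = 0) :
    ∀ x l, S.Hom x → (∀ y ∈ l, S.Hom y) → l.length = (p - 1) * c + 1 → lnb x l = 0 := by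
  intro x l hx hl hlen
  cases l with
  | nil => simp at hlen
  | cons y₀ l' =>
    obtain ⟨i, hi⟩ := hx
    obtain ⟨i', hi'⟩ := hl y₀ List.mem_cons_self
    have h0 : ⁅x, y₀⁆ ∈ S.LC 0 (i + i') :=
      AddSubgroup.subset_closure ⟨i, i', x, y₀, rfl, hi, hi', rfl⟩
    have h1 : ⁅x, y₀⁆ ∈ S.LCt 0 := LC_le_LCt S 0 _ h0
    have h2 := KK7_blocks p S c 0 _ l' h1 (fun y hy => hl y (List.mem_cons_of_mem _ hy)) (by
      rw [List.length_cons] at hlen
      omega)
    rw [zero_add, LCt_eq_bot S c h, AddSubgroup.mem_bot] at h2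
    rw [lnb_cons]
    exact h2

end Cfsg.Agent.Lib.Helper6.HKK
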