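import Cfsg.Agent.Lib.Helper6.HKK.Defs

/-!
# HKK piece KR2

Arithmetic of iterated derived systems.
-/

set_option autoImplicit false

namespace Cfsg.Agent.Lib.Helper6.HKK

universe u

variable {n : ℕ} {L : Type u} [LieRing L]

theorem derN_add (S : GS n L) (a b : ℕ) : (S.derN a).derN b = S.derN (a + b) := by
  induction b with
  | zero => rfl
  | succ b ih =>
    show ((S.derN a).derN b).der = (S.derN (a + b)).der
    rw [ih]
theorem der_derN (S : GS n L) (m : ℕ) : S.der.derN m = S.derN (m + 1) := by
  have h := derN_add S 1 m
  rw [add_comm] at h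
  exact h
theorem derN_le (S : GS n L) (m : ℕ) : (S.derN m).le S := by
  induction m with
  | zero => exact fun i => le_refl _
  | succ m ih => exact fun i => ((S.derN m).derC_le i).trans (ih i)

end Cfsg.Agent.Lib.Helper6.HKK
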