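import Cfsg.Agent.Lib.Helper6.HKK.Defs
import Cfsg.Agent.Lib.Helper6.HKK.M0
import Cfsg.Agent.Lib.Helper6.HKK.KR2
import Cfsg.Agent.Lib.Helper6.HKK.KK7

/-!
# HKK piece KK8

Induction on s, for all S.
-/

set_option autoImplicit false

namespace Cfsg.Agent.Lib.Helper6.HKK

universe u

variable {n : ℕ} {L : Type u} [LieRing L]

theorem KK8_xi_succ (p s : ℕ) : xi p (s + 1) = (p - 1) * xi p s + 1 := by
  unfold xi
  rw [Finset.sum_range_succ', Finset.mul_sum, pow_zero]
  congr 1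
  apply Finset.sum_congr rfl
  intro i _
  rw [pow_succ']

theorem kk (p : ℕ) [Fact p.Prime] {L : Type u} [LieRing L] (s : ℕ) : ∀ S : GS p L, (∀ i, (S.derN s).c i = ⊥) →
    ∀ x l, S.Hom x → (∀ y ∈ l, S.Hom y) → l.length = xi p s → lnb x l = 0 := by
  induction s with
  | zero =>
    intro S hS x l hx _ _
    obtain ⟨i, hi⟩ := hx
    have h1 : S.c i = ⊥ := hS i
    rw [h1, AddSubgroup.mem_bot] at hi
    rw [hi, lnb_zero]
  | succ s ih =>
    intro S hS x l hx hl hlen
    rw [KK8_xi_succ] at hlen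
    refine kk_step p S (xi p s) ?_ x l hx hl hlen
    apply ih S.der
    intro i
    rw [der_derN]
    exact hS i

end Cfsg.Agent.Lib.Helper6.HKK
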