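import Cfsg.Agent.Lib.Helper6.HKK.Defs

/-!
# HKK piece KR0

Universal property of `gen`: induction on `GS.HG`.
-/

set_option autoImplicit false

namespace Cfsg.Agent.Lib.Helper6.HKK

universe u

variable {n : ℕ} {L : Type u} [LieRing L]

theorem gen_le (S T : GS n L) (k : ℕ) (h : ∀ i : ZMod n, k < i.val → S.c i ≤ T.c i) :
    (S.gen k).le T := by
  intro i x hx
  change GS.HG S k i x at hx
  induction hx with
  | gen i x hi hx => exact h i hi hx
  | zero i => exact (T.c i).zero_mem
  | add i x y _ _ hx hy => exact (T.c i).add_mem hx hy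
  | neg i x _ hx => exact (T.c i).neg_mem hx
  | lie i j x y _ _ hx hy => exact T.lie_mem i j x y hx hy
theorem gen_le_self (S : GS n L) (k : ℕ) : (S.gen k).le S := fun _ _ hx => GS.HG.mem hx
theorem mem_gen_of_lt (S : GS n L) (k : ℕ) (i : ZMod n) (hi : k < i.val) (x : L) (hx : x ∈ S.c i) :
    x ∈ (S.gen k).c i := GS.HG.gen i x hi hx

end Cfsg.Agent.Lib.Helper6.HKK
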