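import Cfsg.Agent.Lib.Helper6.HKK.Defs
import Cfsg.Agent.Lib.Helper6.HKK.KR0

/-!
# HKK piece KR1

KEY LEMMA of Kreknin.  H = gen S (k-1), N = gen S k, 1 ≤ k < n.  If u ∈ H_a, v ∈ H_b, a + b = k then ⁅u,v⁆ ∈ N_{a+b}.
Proof: induction on the derivation `GS.HG S (k-1) a u`, with `b`, `v` universally quantified (revert them and `hab`).
* gen: u ∈ S.c a, k-1 < a.val, i.e. k ≤ a.val.  If a.val = k then a = (k : ZMod n), so b = 0, v ∈ H.c 0 = ⊥, v = 0, bracket 0.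
  If k < a.val: u ∈ N.c a (generator).  b = k - a has b.val = n + k - a.val > k (a.val < n), and v ∈ S.c b (HG.mem), so v ∈ N.c b (generator);
  N is closed under brackets.
* zero/add/neg: `zero_lie`, `add_lie`, `neg_lie`.
* lie: u = ⁅u₁,u₂⁆, u₁ ∈ H_{a₁}, u₂ ∈ H_{a₂}: ⁅⁅u₁,u₂⁆,v⁆ = ⁅u₁,⁅u₂,v⁆⁆ - ⁅u₂,⁅u₁,v⁆⁆ (`lie_lie`/`leibniz_lie`); ⁅u₂,v⁆ ∈ H_{a₂+b} and a₁+(a₂+b) = k:
  IH(u₁) gives ⁅u₁,⁅u₂,v⁆⁆ ∈ N_{a₁+(a₂+b)}; same for the other term; rewrite the indices.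
-/

set_option autoImplicit false

namespace Cfsg.Agent.Lib.Helper6.HKK

universe u

variable {n : ℕ} {L : Type u} [LieRing L]

theorem k1_aux [NeZero n] (S : GS n L) (k : ℕ) (hk1 : 1 ≤ k) (hkn : k < n) (a : ZMod n) (u : L)
    (hu : GS.HG S (k - 1) a u) : ∀ (b : ZMod n) (v : L), a + b = (k : ZMod n) →
      v ∈ (S.gen (k - 1)).c b → ⁅u, v⁆ ∈ (S.gen k).c (a + b) := by
  induction hu with
  | gen a u ha hua =>
    intro b v hab hv
    have hvS : v ∈ S.c b := GS.HG.mem hv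
    rcases Nat.lt_or_ge k a.val with h | h
    · have hb : k < b.val := by
        have h1 : (a + b).val = k := by rw [hab, ZMod.val_natCast_of_lt hkn]
        rw [ZMod.val_add] at h1
        have ha' := ZMod.val_lt a
        have hb' := ZMod.val_lt b
        rcases Nat.lt_or_ge (a.val + b.val) n with h2 | h2
        · rw [Nat.mod_eq_of_lt h2] at h1
          omega
        · rw [Nat.mod_eq_sub_mod h2, Nat.mod_eq_of_lt (by omega)] at h1
          omega
      exact (S.gen k).lie_mem a b u v (GS.HG.gen a u h hua) (GS.HG.gen b v hb hvS)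
    · have hak : a.val = k := by omega
      have ha' : a = (k : ZMod n) := by rw [← hak, ZMod.natCast_zmod_val]
      have hb0 : b = 0 := by
        rw [ha'] at hab
        simpa using hab
      subst hb0
      rw [(S.gen (k - 1)).zero] at hv
      have hv0 : v = 0 := hv
      rw [hv0, lie_zero]
      exact zero_mem _
  | zero a =>
    intro b v _ _
    rw [zero_lie]
    exact zero_mem _
  | add a x y _ _ ihx ihy =>
    intro b v hab hv
    rw [add_lie]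
    exact add_mem (ihx b v hab hv) (ihy b v hab hv)
  | neg a x _ ih =>
    intro b v hab hv
    rw [neg_lie]
    exact neg_mem (ih b v hab hv)
  | lie a₁ a₂ u₁ u₂ h1 h2 ih1 ih2 =>
    intro b v hab hv
    rw [lie_lie]
    have e1 : ⁅u₂, v⁆ ∈ (S.gen (k - 1)).c (a₂ + b) := (S.gen (k - 1)).lie_mem a₂ b u₂ v h2 hv
    have e2 : ⁅u₁, v⁆ ∈ (S.gen (k - 1)).c (a₁ + b) := (S.gen (k - 1)).lie_mem a₁ b u₁ v h1 hv
    have t1 := ih1 (a₂ + b) _ (by rw [← hab]; ring) e1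
    have t2 := ih2 (a₁ + b) _ (by rw [← hab]; ring) e2
    have i1 : a₁ + (a₂ + b) = a₁ + a₂ + b := by ring
    have i2 : a₂ + (a₁ + b) = a₁ + a₂ + b := by ring
    rw [i1] at t1
    rw [i2] at t2
    exact sub_mem t1 t2

theorem k1 [NeZero n] (S : GS n L) (k : ℕ) (hk1 : 1 ≤ k) (hkn : k < n) (a b : ZMod n)
    (hab : a + b = (k : ZMod n)) (u v : L) (hu : u ∈ (S.gen (k - 1)).c a)
    (hv : v ∈ (S.gen (k - 1)).c b) : ⁅u, v⁆ ∈ (S.gen k).c (a + b) :=
  k1_aux S k hk1 hkn a u hu b v hab hv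

end Cfsg.Agent.Lib.Helper6.HKK
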