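import Cfsg.Agent.Lib.Helper6.HKK.Defs
import Cfsg.Agent.Lib.Helper6.HKK.KR0
import Cfsg.Agent.Lib.Helper6.HKK.KR1
import Cfsg.Agent.Lib.Helper6.HKK.KR2

/-!
# HKK piece KR3

Kreknin: L^{(2^k - 1)} ≤ ⟨L_{k+1},…,L_{n-1}⟩.  Induction on k, for all S simultaneously.
k = 0: derN 0 = S; for i ≠ 0, 0 < i.val so generator; for i = 0, S.c 0 = ⊥.
k → k+1 (k+1 < n): D := S.derN (2^k - 1) ≤ gen S k =: H (IH for S).  D' := D.der = S.derN (2^k).
 Claim: for k < i.val (i.e. k+1 ≤ i.val): D'.c i ≤ (gen S (k+1)).c i.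
   * k+1 < i.val: D'.c i ≤ S.c i (derN_le) and generator.
   * i.val = k+1, i = ((k+1 : ℕ) : ZMod n): D'.c i is the closure of ⁅x,y⁆, x ∈ D.c a ≤ H.c a, y ∈ D.c b ≤ H.c b, a + b = i: `k1` (with k+1).
 IH for D': D'.derN (2^k - 1) ≤ gen D' k ≤ gen S (k+1) by `gen_le`.  And D'.derN (2^k-1) = S.derN (2^k + (2^k - 1)) = S.derN (2^(k+1) - 1).
-/

set_option autoImplicit false

namespace Cfsg.Agent.Lib.Helper6.HKK

universe u

variable {n : ℕ} {L : Type u} [LieRing L]

theorem kreknin [NeZero n] (k : ℕ) (hk : k < n) : ∀ S : GS n L, (S.derN (2 ^ k - 1)).le (S.gen k) := by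
  induction k with
  | zero =>
    intro S i x hx
    have hx' : x ∈ S.c i := hx
    by_cases hi : i = 0
    · subst hi
      rw [S.zero] at hx'
      have hx0 : x = 0 := hx'
      rw [hx0]
      exact zero_mem _
    · have : 0 < i.val := Nat.pos_of_ne_zero (fun h => hi ((ZMod.val_eq_zero i).1 h))
      exact mem_gen_of_lt S 0 i this x hx'
  | succ k ih =>
    intro S
    have ihk := ih (by omega)
    have hD : (S.derN (2 ^ k - 1)).le (S.gen k) := ihk S
    have hpos : 0 < 2 ^ k := Nat.pos_of_ne_zero (by positivity)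
    have hD' : (S.derN (2 ^ k - 1)).der = S.derN (2 ^ k) := by
      have : 2 ^ k = (2 ^ k - 1) + 1 := by omega
      conv_rhs => rw [this]
      rfl
    have claim : ∀ i : ZMod n, k < i.val → (S.derN (2 ^ k)).c i ≤ (S.gen (k + 1)).c i := by
      intro i hi
      rcases Nat.lt_or_ge (k + 1) i.val with h | h
      · intro x hx
        exact mem_gen_of_lt S (k + 1) i h x (derN_le S _ i hx)
      · have hik : i.val = k + 1 := by omega
        have hi' : i = ((k + 1 : ℕ) : ZMod n) := by rw [← hik, ZMod.natCast_zmod_val]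
        rw [← hD']
        show (S.derN (2 ^ k - 1)).derC i ≤ _
        unfold GS.derC
        rw [AddSubgroup.closure_le]
        rintro z ⟨a, b, x, y, hab, hx, hy, rfl⟩
        have h1 := k1 S (k + 1) (by omega) hk a b (by rw [hab, hi']) x y
          (by simpa using hD a hx) (by simpa using hD b hy)
        rw [hab] at h1
        exact h1
    have h2 : ((S.derN (2 ^ k)).derN (2 ^ k - 1)).le ((S.derN (2 ^ k)).gen k) := ihk _
    have h3 : ((S.derN (2 ^ k)).gen k).le (S.gen (k + 1)) := gen_le _ _ k claim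
    have h4 : (S.derN (2 ^ k)).derN (2 ^ k - 1) = S.derN (2 ^ (k + 1) - 1) := by
      rw [derN_add]
      congr 1
      rw [pow_succ]
      omega
    rw [← h4]
    intro i x hx
    exact h3 i (h2 i hx)

end Cfsg.Agent.Lib.Helper6.HKK
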