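import Cfsg.Agent.Lib.Helper6.HKK.Defs
import Cfsg.Agent.Lib.Helper6.HKK.KR3

/-!
# HKK piece KR4

`gen S (n-1)` is trivial (no index has val > n-1: `ZMod.val_lt`), by induction on `GS.HG`; then `kreknin (n-1)`.
-/

set_option autoImplicit false

namespace Cfsg.Agent.Lib.Helper6.HKK

universe u

variable {n : ℕ} {L : Type u} [LieRing L]

theorem HG_top_eq_zero [NeZero n] (S : GS n L) {i : ZMod n} {x : L}
    (h : GS.HG S (n - 1) i x) : x = 0 := by
  induction h with
  | gen i x hi _ =>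
    exfalso
    have := ZMod.val_lt i
    omega
  | zero i => rfl
  | add i x y _ _ hx hy => rw [hx, hy, add_zero]
  | neg i x _ hx => rw [hx, neg_zero]
  | lie i j x y _ _ hx hy => rw [hx, zero_lie]

theorem derN_eq_bot [NeZero n] (S : GS n L) (i : ZMod n) : (S.derN (2 ^ (n - 1) - 1)).c i = ⊥ := by
  rw [eq_bot_iff]
  intro x hx
  have hn : 0 < n := Nat.pos_of_ne_zero (NeZero.ne n)
  have h1 := kreknin (n - 1) (by omega) S i hx
  have h2 : GS.HG S (n - 1) i x := h1
  rw [AddSubgroup.mem_bot]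
  exact HG_top_eq_zero S h2

end Cfsg.Agent.Lib.Helper6.HKK
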