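import Cfsg.Agent.Lib.Helper6.HKK.Defs
import Cfsg.Agent.Lib.Helper6.HKK.KR4
import Cfsg.Agent.Lib.Helper6.HKK.KK8

/-!
# HKK piece G

Theorem G = `derN_eq_bot` (n = p, `NeZero p` from the prime) + `kk`.
-/

set_option autoImplicit false

namespace Cfsg.Agent.Lib.Helper6.HKK

universe u

variable {n : ℕ} {L : Type u} [LieRing L]

theorem thmG (p : ℕ) [Fact p.Prime] {L : Type u} [LieRing L] (S : GS p L) :
    ∀ x l, S.Hom x → (∀ y ∈ l, S.Hom y) → l.length = xi p (2 ^ (p - 1) - 1) → lnb x l = 0 := by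
  have : NeZero p := ⟨(Fact.out : p.Prime).ne_zero⟩
  exact kk p (2 ^ (p - 1) - 1) S (fun i => derN_eq_bot S i)

end Cfsg.Agent.Lib.Helper6.HKK
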