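import Cfsg.Agent.Lib.Helper6.HKK.Defs
import Cfsg.Agent.Lib.Helper6.HKK.M0

/-!
# HKK piece M1

Multilinearity: if `lnb` vanishes on all lists of length `h` with entries in `P`, it vanishes on all lists
of length `h` with entries in the additive closure of `P`.
Proof: replace the entries one at a time, from the left (`M1_aux`), then the head.
-/

set_option autoImplicit false

namespace Cfsg.Agent.Lib.Helper6.HKK

universe u

variable {n : ℕ} {L : Type u} [LieRing L]

theorem M1_aux (P : Set L) (h : ℕ)
    (hv : ∀ x l, x ∈ P → (∀ y ∈ l, y ∈ P) → l.length = h → lnb x l = 0) :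
    ∀ l₂ : List L, (∀ y ∈ l₂, y ∈ AddSubgroup.closure P) → ∀ x l₁, x ∈ P → (∀ y ∈ l₁, y ∈ P) →
      l₁.length + l₂.length = h → lnb x (l₁ ++ l₂) = 0 := by
  intro l₂
  induction l₂ with
  | nil =>
    intro _ x l₁ hx hl₁ hlen
    rw [List.append_nil]
    exact hv x l₁ hx hl₁ (by simpa using hlen)
  | cons y l₂ ih =>
    intro hl₂ x l₁ hx hl₁ hlen
    have hy : y ∈ AddSubgroup.closure P := hl₂ y (by simp)
    have hl₂' : ∀ z ∈ l₂, z ∈ AddSubgroup.closure P := fun z hz => hl₂ z (by simp [hz])
    have key : ∀ y : L, y ∈ AddSubgroup.closure P → lnb ⁅lnb x l₁, y⁆ l₂ = 0 := by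
      intro y hy
      induction hy using AddSubgroup.closure_induction with
      | mem y hy =>
        have h1 := ih hl₂' x (l₁ ++ [y]) hx
          (by
            intro z hz
            rcases List.mem_append.1 hz with hz | hz
            · exact hl₁ z hz
            · rw [List.mem_singleton] at hz
              rw [hz]
              exact hy)
          (by
            simp only [List.length_append, List.length_cons, List.length_nil] at hlen ⊢
            omega)
        rw [lnb_append, lnb_append, lnb_cons, lnb_nil] at h1
        exact h1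
      | zero => rw [lie_zero, lnb_zero]
      | add a b _ _ ha hb => rw [lie_add, lnb_add, ha, hb, add_zero]
      | neg a _ ha => rw [lie_neg, lnb_neg, ha, neg_zero]
    rw [lnb_append, lnb_cons]
    exact key y hy

theorem lnb_closure (P : Set L) (h : ℕ)
    (hv : ∀ x l, x ∈ P → (∀ y ∈ l, y ∈ P) → l.length = h → lnb x l = 0) :
    ∀ x l, x ∈ AddSubgroup.closure P → (∀ y ∈ l, y ∈ AddSubgroup.closure P) → l.length = h →
      lnb x l = 0 := by
  intro x l hx hl hlen
  induction hx using AddSubgroup.closure_induction with
  | mem x hx =>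
    have h1 := M1_aux P h hv l hl x [] hx (by simp) (by simpa using hlen)
    simpa using h1
  | zero => rw [lnb_zero]
  | add a b _ _ ha hb => rw [lnb_add, ha, hb, add_zero]
  | neg a _ ha => rw [lnb_neg, ha, neg_zero]

end Cfsg.Agent.Lib.Helper6.HKK
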