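import Cfsg.Agent.Lib.Helper6.HKK.DefsE
import Cfsg.Agent.Lib.Helper6.HKK.M1
import Cfsg.Agent.Lib.Helper6.HKK.E1
import Cfsg.Agent.Lib.Helper6.HKK.E2
import Cfsg.Agent.Lib.Helper6.HKK.E4
import Cfsg.Agent.Lib.Helper6.HKK.E6

/-!
# HKK piece II

S from `exists_GS`; P := {X | S.Hom X}.  uu ⊗ x = Σ_k comp k x ∈ closure P (`sum_comp`, `AddSubgroup.sum_mem`).  `lnb_closure` (M1) with hG S gives lnb (uu ⊗ x) (l.map (uu ⊗ ·)) = 0 (length of the map = h); `lnb_tmul` rewrites it as uu^(h+1) ⊗ lnb x l; `eq_zero_of_uu_pow_tmul`.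
-/

set_option autoImplicit false

open scoped TensorProduct

namespace Cfsg.Agent.Lib.Helper6.HKK

universe u

variable {L : Type u} [LieRing L]

theorem lie_fpf (p : ℕ) [Fact p.Prime] (φ : L →+ L) (hφ : ∀ x y, φ ⁅x, y⁆ = ⁅φ x, φ y⁆) (hpow : ∀ x, φ^[p] x = x)
    (hsum : ∀ x, ∑ j ∈ Finset.range p, φ^[j] x = 0) (htor : ∀ x : L, p • x = 0 → x = 0) (h : ℕ)
    (hG : ∀ (S : GS p (LH p L)) (X : LH p L) (l : List (LH p L)), S.Hom X → (∀ Y ∈ l, S.Hom Y) → l.length = h → lnb X l = 0) :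
    ∀ (x : L) (l : List L), l.length = h → lnb x l = 0 := by
  intro x l hl
  obtain ⟨S, hS⟩ := exists_GS p φ hφ hpow hsum
  have hcl : ∀ y : L, (uu p ⊗ₜ[ℤ] y : LH p L) ∈ AddSubgroup.closure {X | S.Hom X} := by
    intro y
    rw [← sum_comp p φ hsum y]
    exact AddSubgroup.sum_mem _ (fun k _ => AddSubgroup.subset_closure ⟨k, hS k y⟩)
  have h0 := lnb_closure {X | S.Hom X} h (fun X l hX hl hlen => hG S X l hX hl hlen)
    (uu p ⊗ₜ[ℤ] x) (l.map (fun y => uu p ⊗ₜ[ℤ] y)) (hcl x) (by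
      intro Y hY
      rw [List.mem_map] at hY
      obtain ⟨y, _, rfl⟩ := hY
      exact hcl y) (by simpa using hl)
  rw [lnb_tmul] at h0
  exact eq_zero_of_uu_pow_tmul p htor _ _ h0

end Cfsg.Agent.Lib.Helper6.HKK
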