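import Cfsg.Agent.Lib.Helper6.HKK.Defs

/-!
# HKK piece P23
-/

set_option autoImplicit false

namespace Cfsg.Agent.Lib.Helper6.HKK

universe u

variable {n : ℕ} {L : Type u} [LieRing L]

theorem P23_zero {n : ℕ} {L : Type u} [LieRing L] (S : GS n L) {x : L} (hx : x ∈ S.c 0) : x = 0 := by
  rw [S.zero] at hx
  exact (AddSubgroup.mem_bot).1 hx

theorem P23_lie_zero {n : ℕ} {L : Type u} [LieRing L] (S : GS n L) {i j : ZMod n} {x y : L}
    (hx : x ∈ S.c i) (hy : y ∈ S.c j) (hij : i + j = 0) : ⁅x, y⁆ = 0 := by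
  apply P23_zero S
  rw [← hij]
  exact S.lie_mem i j x y hx hy

theorem thm2 {L : Type u} [LieRing L] (S : GS 2 L) :
    ∀ x l, S.Hom x → (∀ y ∈ l, S.Hom y) → l.length = 1 → lnb x l = 0 := by
  intro x l hx hl hlen
  obtain ⟨y, rfl⟩ := List.length_eq_one_iff.1 hlen
  obtain ⟨i, hi⟩ := hx
  obtain ⟨j, hj⟩ := hl y (by simp)
  show ⁅x, y⁆ = 0
  have h2 : ∀ i j : ZMod 2, i = 0 ∨ j = 0 ∨ i + j = 0 := by decide
  rcases h2 i j with rfl | rfl | h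
  · rw [P23_zero S hi, zero_lie]
  · rw [P23_zero S hj, lie_zero]
  · exact P23_lie_zero S hi hj h

theorem thm3 {L : Type u} [LieRing L] (S : GS 3 L) :
    ∀ x l, S.Hom x → (∀ y ∈ l, S.Hom y) → l.length = 2 → lnb x l = 0 := by
  intro x l hx hl hlen
  obtain ⟨y, z, rfl⟩ := List.length_eq_two.1 hlen
  obtain ⟨i, hi⟩ := hx
  obtain ⟨j, hj⟩ := hl y (by simp)
  obtain ⟨k, hk⟩ := hl z (by simp)
  show ⁅⁅x, y⁆, z⁆ = 0
  have h3 : ∀ i j k : ZMod 3, i + j = 0 ∨ (i + j) + k = 0 ∨ (i + k = 0 ∧ j + k = 0) ∨ i = 0 ∨ j = 0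
      ∨ k = 0 := by decide
  rcases h3 i j k with h | h | ⟨h, h'⟩ | rfl | rfl | rfl
  · rw [P23_lie_zero S hi hj h, zero_lie]
  · exact P23_lie_zero S (S.lie_mem i j x y hi hj) hk h
  · rw [lie_lie, P23_lie_zero S hj hk h', lie_zero, P23_lie_zero S hi hk h, lie_zero, sub_zero]
  · rw [P23_zero S hi, zero_lie, zero_lie]
  · rw [P23_zero S hj, lie_zero, zero_lie]
  · rw [P23_zero S hk, lie_zero]

end Cfsg.Agent.Lib.Helper6.HKK
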